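import Cfsg.Agent.DType.Unipotent

/-!
# The kernel of a perfect central extension of `PΩ⁺`

The group is `U N U`, so the kernel lies in the torus.
-/

set_option autoImplicit false
set_option linter.unusedSectionVars false

namespace Cfsg.Agent.DType

open scoped commutatorElement MatrixGroups Matrix

universe u v

variable {F : Type u} [Field F] [Finite F] {l : ℕ} {E : Type v} [Group E]
  {π : E →* POmega F (Q l F)}

theorem commutator_POmega (hl : 3 ≤ l) : commutator (POmega F (Q l F)) = ⊤ := by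
  classical
  refine top_le_iff.1 ?_
  rw [← (proj (F := F) (l := l)).range_eq_top_of_surjective (QuotientGroup.mk'_surjective _),
    MonoidHom.range_eq_map, ← closure_Y hl, MonoidHom.map_closure, Subgroup.closure_le]
  rintro _ ⟨_, ⟨a, b, t, h, rfl⟩, rfl⟩
  obtain ⟨m, h1, h2⟩ := exists_ix_ne hl (ix a) (ix b)
  have e : Y hl a b t = ⁅Y hl a m t, Y hl (bar m) b 1⁆ := by
    refine Subtype.ext ?_
    show X a b t = ⁅X a m t, X (bar m) b 1⁆
    rw [X_commutator h1.symm h2 h, mul_one]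
  rw [e, map_commutatorElement, SetLike.mem_coe, _root_.commutator_def]
  exact Subgroup.commutator_mem_commutator (Subgroup.mem_top _) (Subgroup.mem_top _)

variable (hE : Ext π)
include hE

/-- The subgroup generated by the lifted root elements. -/
def Ext.gen : Subgroup E := Subgroup.closure {g | ∃ a b t, ix a ≠ ix b ∧ g = hE.Z a b t}

theorem Ext.gen_eq_top (hker : π.ker ≤ commutator E) : hE.gen = ⊤ := by
  have hl := hE.three_le
  have hmap : ∀ g : E, ∃ x ∈ hE.gen, π x = π g := by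
    intro g
    obtain ⟨ω, hω⟩ := QuotientGroup.mk'_surjective _ (π g)
    rw [← hω]
    have hmem : ω ∈ Subgroup.closure {g : Omega F (Q l F) | ∃ a b t, ix a ≠ ix b ∧ g = Y hl a b t} := by
      rw [closure_Y hl]; exact Subgroup.mem_top _
    clear hω
    induction hmem using Subgroup.closure_induction with
    | mem x hx =>
      obtain ⟨a, b, t, h, rfl⟩ := hx
      obtain ⟨_, e⟩ := hE.Z_spec h t
      exact ⟨_, Subgroup.subset_closure ⟨a, b, t, h, rfl⟩, e⟩
    | one => exact ⟨1, one_mem _, by rw [map_one]; rfl⟩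
    | mul x y _ _ ihx ihy =>
      obtain ⟨p, hp, e1⟩ := ihx
      obtain ⟨r, hr, e2⟩ := ihy
      exact ⟨p * r, mul_mem hp hr, by rw [map_mul, e1, e2]; rfl⟩
    | inv x _ ih =>
      obtain ⟨p, hp, e1⟩ := ih
      exact ⟨p⁻¹, inv_mem hp, by rw [map_inv, e1]; rfl⟩
  have hperf : commutator E = ⊤ := by
    rw [eq_top_iff]
    intro g _
    have hg : π g ∈ (commutator E).map π := by
      rw [_root_.commutator_def, Subgroup.map_commutator, Subgroup.map_top_of_surjective π hE.surj,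
        ← _root_.commutator_def, commutator_POmega hl]
      exact Subgroup.mem_top _
    obtain ⟨x, hx, e⟩ := hg
    have : x⁻¹ * g ∈ commutator E := hker (by rw [MonoidHom.mem_ker, map_mul, map_inv, e, inv_mul_cancel])
    simpa using mul_mem hx this
  rw [eq_top_iff, ← hperf, _root_.commutator_def, Subgroup.commutator_le]
  intro x _ y _
  obtain ⟨p, hp, e1⟩ := hmap x
  obtain ⟨r, hr, e2⟩ := hmap y
  rw [Cfsg.Agent.CentralExt.Laced.lift_comm_eq hE.central (x := p) (y := r) e1.symm e2.symm]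
  rw [commutatorElement_def]
  exact mul_mem (mul_mem (mul_mem hp hr) (inv_mem hp)) (inv_mem hr)

/-- The positive roots and the simple Weyl elements generate. -/
def Ext.K : Subgroup E :=
  hE.U ⊔ Subgroup.closure {g | ∃ a b t, Simple a b ∧ t ≠ 0 ∧ g = hE.W a b t}

theorem Ext.W_mem_K {a b : I l} (h : Simple a b) {t : F} (ht : t ≠ 0) : hE.W a b t ∈ hE.K :=
  Subgroup.mem_sup_right (Subgroup.subset_closure ⟨a, b, t, h, ht, rfl⟩)

theorem Ext.neg_mem_K : ∀ (n : ℕ) (c d : I l), Pos c d → wt c + wt d ≤ n →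
    ∀ t, hE.Z (bar d) (bar c) t ∈ hE.K := by
  intro n
  induction n with
  | zero => intro c d h hn; have := h.2; omega
  | succ n ih =>
    intro c d h hn t
    have base : ∀ {a b : I l}, Simple a b → ∀ t, hE.Z (bar b) (bar a) t ∈ hE.K := by
      intro a b hs t
      have hab := hs.pos
      have hm := isMono_Ww hab.1 (one_ne_zero (α := F))
      have e := hE.Z_conj hm (hE.W_lies hab.1 1) hab.1 ((ww a b 1 a * ww a b 1 b)⁻¹ * t)
      rw [(sw_apply hab.1).1, (sw_apply hab.1).2.1,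
        mul_inv_cancel_left₀ (mul_ne_zero (hm.ne_zero a) (hm.ne_zero b))] at e
      rw [← e]
      exact mul_mem (mul_mem (hE.W_mem_K hs one_ne_zero)
        (Subgroup.mem_sup_left (hE.Z_mem_U hab _))) (inv_mem (hE.W_mem_K hs one_ne_zero))
    rcases h.descend with hs | hs | ⟨a, b, hs, h1, h2⟩
    · exact base hs t
    · rw [hE.Z_swap (a := bar c) (c := bar d) (by simpa using h.1)]
      exact base hs _
    · have hab := hs.pos
      have hm := isMono_Ww hab.1 (one_ne_zero (α := F))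
      have hcd' : Pos (sw a b c) (sw a b d) := ⟨sw_ix_ne hab.1 h.1, h1⟩
      have hr : ix (sw a b (bar d)) ≠ ix (sw a b (bar c)) := by
        rw [sw_bar hab.1, sw_bar hab.1, ix_bar, ix_bar]; exact hcd'.1.symm
      have hinv : ∀ x, sw a b (sw a b x) = x := fun x => by
        rw [← Equiv.Perm.mul_apply, sw_mul_self hab.1]; rfl
      have e := hE.Z_conj hm (hE.W_lies hab.1 1) hr
        ((ww a b 1 (sw a b (bar d)) * ww a b 1 (sw a b (bar c)))⁻¹ * t)
      rw [hinv, hinv, mul_inv_cancel_left₀ (mul_ne_zero (hm.ne_zero _) (hm.ne_zero _))] at e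
      rw [← e]
      refine mul_mem (mul_mem (hE.W_mem_K hs one_ne_zero) ?_) (inv_mem (hE.W_mem_K hs one_ne_zero))
      rw [sw_bar hab.1, sw_bar hab.1]
      exact ih _ _ hcd' (by omega) _

theorem Ext.K_eq_top (hker : π.ker ≤ commutator E) : hE.K = ⊤ := by
  rw [eq_top_iff, ← hE.gen_eq_top hker, Ext.gen, Subgroup.closure_le]
  rintro _ ⟨a, b, t, h, rfl⟩
  rcases lt_or_gt_of_ne (wt_sum_ne h) with hneg | hpos
  · have hp : Pos (bar b) (bar a) := ⟨by simpa using h.symm, by rw [wt_bar, wt_bar]; omega⟩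
    have e := hE.neg_mem_K (wt (bar b) + wt (bar a)).toNat _ _ hp (Int.self_le_toNat _) t
    rwa [bar_bar, bar_bar] at e
  · exact Subgroup.mem_sup_left (hE.Z_mem_U ⟨h, hpos⟩ t)

/-- The product set `U N U`. -/
def Ext.Cell (g : E) : Prop := ∃ x ∈ hE.U, ∃ n ∈ hE.WN, ∃ y ∈ hE.U, g = x * n * y

theorem Ext.exists_mono {n : E} (hn : n ∈ hE.WN) :
    ∃ σ w γ, IsMono γ σ w ∧ Lies π n γ := by
  refine Subgroup.closure_induction_left (p := fun n _ => ∃ σ w γ, IsMono γ σ w ∧ Lies π n γ)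
    ⟨1, _, 1, IsMono.one, Lies.one⟩ ?_ ?_ hn
  · rintro _ ⟨a, b, t, h, ht, rfl⟩ y _ ⟨σ, w, γ, h1, h2⟩
    exact ⟨_, _, _, (isMono_Ww h ht).mul h1, (hE.W_lies h t).mul h2⟩
  · rintro _ ⟨a, b, t, h, ht, rfl⟩ y _ ⟨σ, w, γ, h1, h2⟩
    rw [hE.W_inv h]
    exact ⟨_, _, _, (isMono_Ww h (neg_ne_zero.2 ht)).mul h1, (hE.W_lies h _).mul h2⟩

theorem Ext.Cell.mul_U {g : E} (hg : hE.Cell g) {x : E} (hx : x ∈ hE.U) : hE.Cell (x * g) := by
  obtain ⟨p, hp, n, hn, y, hy, rfl⟩ := hg
  exact ⟨x * p, mul_mem hx hp, n, hn, y, hy, by group⟩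

theorem Ext.Cell.mul_W {g : E} (hg : hE.Cell g) {a b : I l} (hs : Simple a b) {t : F}
    (ht : t ≠ 0) : hE.Cell (hE.W a b t * g) := by
  have hab := hs.pos
  obtain ⟨p, hp, n, hn, y, hy, rfl⟩ := hg
  obtain ⟨s, v, hv, rfl⟩ := hE.U_split hab hp
  set W := hE.W a b t
  have hWn : W * n ∈ hE.WN := mul_mem (hE.W_mem_WN hab.1 ht) hn
  have hm := isMono_Ww hab.1 ht
  set s' := ww a b t a * ww a b t b * s
  set N := hE.Z (bar b) (bar a) s'
  have hN : W * hE.Z a b s * W⁻¹ = N := by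
    rw [hE.Z_conj hm (hE.W_lies hab.1 t) hab.1, (sw_apply hab.1).1, (sw_apply hab.1).2.1]
  have hv' : W * v * W⁻¹ ∈ hE.Uo a b := hE.W_Uo hs ht hv
  have hNu : ∀ u ∈ hE.Uo a b, N * u * N⁻¹ ∈ hE.Uo a b := by
    intro u hu
    rw [← hN]
    have h1 : W⁻¹ * u * W ∈ hE.Uo a b := by
      have := hE.W_Uo hs (neg_ne_zero.2 ht) hu
      rwa [← hE.W_inv hab.1, inv_inv] at this
    have := hE.W_Uo hs ht (hE.Uo_conj hab s h1)
    convert this using 1
    simp only [W]
    group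
  have main : W * (hE.Z a b s * v * n * y) =
      (N * (W * v * W⁻¹) * N⁻¹) * (N * (W * n)) * y := by
    rw [← hN]; group
  rw [main]
  suffices h : hE.Cell (N * (W * n)) by
    obtain ⟨p', hp', n', hn', y', hy', e⟩ := h
    exact ⟨_ * p', mul_mem (hE.Uo_le a b (hNu _ hv')) hp', n', hn', y' * y, mul_mem hy' hy,
      by rw [e]; group⟩
  obtain ⟨τ, w, γ, hγ, hl⟩ := hE.exists_mono (inv_mem hWn)
  have hab' : ix (bar b) ≠ ix (bar a) := by simpa using hab.1.symm
  have e := hE.Z_conj hγ hl hab' s'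
  rw [inv_inv] at e
  rcases lt_or_gt_of_ne (wt_sum_ne (hγ.conj hab' s').1) with hneg | hpos
  · rcases eq_or_ne s' 0 with h0 | h0
    · exact ⟨1, one_mem _, W * n, hWn, 1, one_mem _, by simp [N, h0, hE.Z_zero hab']⟩
    set r := s'⁻¹
    have hr : r ≠ 0 := inv_ne_zero h0
    have eW : hE.W a b (-r) = hE.Z a b (-r) * N * hE.Z a b (-r) := by
      rw [Ext.W, inv_neg, neg_neg, inv_inv]
    have hτ : Pos (τ a) (τ b) := by
      refine ⟨(hγ.conj hab.1 s').1, ?_⟩
      rw [(hγ.perm_bar b).1, (hγ.perm_bar a).1, wt_bar, wt_bar] at hneg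
      omega
    refine ⟨hE.Z a b r, hE.Z_mem_U hab _, hE.W a b (-r) * (W * n),
      mul_mem (hE.W_mem_WN hab.1 (neg_ne_zero.2 hr)) hWn,
      hE.Z (τ a) (τ b) (w a * w b * r), hE.Z_mem_U hτ _, ?_⟩
    rw [← hE.Z_conj hγ hl hab.1, eW, ← hE.Z_inv hab.1]
    group
  · refine ⟨1, one_mem _, W * n, hWn, hE.Z (τ (bar b)) (τ (bar a)) (w (bar b) * w (bar a) * s'),
      hE.Z_mem_U ⟨(hγ.conj hab' s').1, hpos⟩ _, ?_⟩
    rw [← e]
    simp only [N]
    group

theorem Ext.cell_all (hker : π.ker ≤ commutator E) (g : E) : hE.Cell g := by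
  have hmem : g ∈ hE.K := by rw [hE.K_eq_top hker]; exact Subgroup.mem_top g
  rw [Ext.K, Ext.U, ← Subgroup.closure_union] at hmem
  refine Subgroup.closure_induction_left (p := fun g _ => hE.Cell g)
    ⟨1, one_mem _, 1, one_mem _, 1, one_mem _, by simp⟩ ?_ ?_ hmem
  · rintro x (⟨a, b, t, h, rfl⟩ | ⟨a, b, t, h, ht, rfl⟩) y _ hy
    · exact hy.mul_U hE (hE.Z_mem_U h t)
    · exact hy.mul_W hE h ht
  · rintro x (⟨a, b, t, h, rfl⟩ | ⟨a, b, t, h, ht, rfl⟩) y _ hy
    · exact hy.mul_U hE (inv_mem (hE.Z_mem_U h t))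
    · rw [hE.W_inv h.pos.1]; exact hy.mul_W hE h (neg_ne_zero.2 ht)

/-- The kernel lies in the torus. -/
theorem Ext.ker_le_torus (hker : π.ker ≤ commutator E) : π.ker ≤ hE.torus.range := by
  intro g hg
  obtain ⟨x, hx, n, hn, y, hy, rfl⟩ := hE.cell_all hker g
  have hcen := hE.central _ hg
  obtain ⟨σ, w, γ, hγ, hl⟩ := hE.exists_mono (inv_mem hn)
  have hu : y * x ∈ hE.U := mul_mem hy hx
  have e : y * (x * n * y) = (x * n * y) * y := hcen y
  have hgn : x * n * y = y * x * n := by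
    calc x * n * y = (x * n * y) * y * y⁻¹ := by group
      _ = y * (x * n * y) * y⁻¹ := by rw [e]
      _ = _ := by group
  have hlu : Lies π (y * x) γ := by
    obtain ⟨h1, h2⟩ := hl
    refine ⟨h1, ?_⟩
    rw [← h2, map_inv, eq_inv_iff_mul_eq_one, ← map_mul, ← hgn]
    exact hg
  obtain ⟨rfl, h1⟩ := hE.U_mono hu hγ hlu
  rw [hgn, h1, one_mul]
  have hn' := hE.mem_torus_of_mono (inv_mem hn) hγ hl
  simpa using inv_mem hn'

/-- The parameters of the kernel. -/
def Par (l : ℕ) (F : Type u) [Field F] : Subgroup (Fˣ × Fˣ) where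
  carrier := {p | p.1 * p.1 = 1 ∧ p.2 * p.2 = p.1 ^ l}
  one_mem' := by simp
  mul_mem' := by
    rintro ⟨a, b⟩ ⟨c, d⟩ ⟨h1, h2⟩ ⟨h3, h4⟩
    exact ⟨by simp only [Prod.fst_mul]; rw [mul_mul_mul_comm, h1, h3, mul_one],
      by simp only [Prod.fst_mul, Prod.snd_mul]; rw [mul_mul_mul_comm, h2, h4, mul_pow]⟩
  inv_mem' := by
    rintro ⟨a, b⟩ ⟨h1, h2⟩
    exact ⟨by simp only [Prod.fst_inv]; rw [← mul_inv, h1, inv_one],
      by simp only [Prod.fst_inv, Prod.snd_inv]; rw [← mul_inv, h2, inv_pow]⟩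

/-- The diagonal parameters above a kernel parameter. -/
def Ext.parD (p : Par l F) (m : Fin l) : Fˣ :=
  if m = hE.o0 ∨ m = hE.o1 then p.1.1 * p.1.2⁻¹ else p.1.1

theorem Ext.parD_mem (p : Par l F) : hE.parD p ∈ diagPar l F := by
  classical
  change ∏ m, hE.parD p m = (1 : Fˣ)
  have : hE.parD p = Pi.mulSingle hE.o0 p.1.2⁻¹ * Pi.mulSingle hE.o1 p.1.2⁻¹ * fun _ => p.1.1 := by
    funext m
    simp only [Ext.parD, Pi.mul_apply, Pi.mulSingle_apply]
    by_cases h0 : m = hE.o0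
    · simp [h0, hE.o_ne, mul_comm]
    · by_cases h1 : m = hE.o1
      · simp [h1, hE.o_ne.symm, mul_comm]
      · simp [h0, h1]
  rw [this]
  simp only [Pi.mul_apply, Finset.prod_mul_distrib, Fintype.prod_pi_mulSingle', Finset.prod_const,
    Finset.card_univ, Fintype.card_fin]
  rw [← p.2.2]
  group

/-- The map onto the kernel. -/
noncomputable def Ext.psi : Par l F →* E :=
  hE.torus.comp (MonoidHom.mk'
    (fun p => ((⟨hE.parD p, hE.parD_mem p⟩ : diagPar l F), p.1.2)) fun p r =>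
      Prod.ext (Subtype.ext (funext fun m => by
        show hE.parD (p * r) m = hE.parD p m * hE.parD r m
        simp only [Ext.parD, Subgroup.coe_mul, Prod.fst_mul, Prod.snd_mul, mul_inv]
        split_ifs
        · exact mul_mul_mul_comm ..
        · rfl)) rfl)

theorem Ext.torus_lies (d : diagPar l F) (s : Fˣ) :
    ∃ γ, Lies π (hE.torus (d, s)) γ ∧
      IsMono γ 1 fun x => Sum.elim (fun m => (d.1 m : F)) (fun m => (d.1 m : F)⁻¹) x * hE.thetaW s x := by
  obtain ⟨γ, a1, a2⟩ := hE.exists_levi compat_one (dgHom l F d)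
  obtain ⟨δ, b1, b2⟩ := hE.theta_lies s
  refine ⟨γ * δ, by rw [Ext.torus, MonoidHom.noncommCoprod_apply]; exact a1.mul b1, ?_⟩
  have h : IsMono γ 1 _ := Levi.isMono_dg (hd := prod_diagPar d) a2
  have h2 := h.mul b2
  rw [mul_one] at h2
  exact h2

theorem Ext.psi_lies (p : Par l F) :
    ∃ γ, Lies π (hE.psi p) γ ∧ IsMono γ 1 fun _ => ((p.1.1 : Fˣ) : F) := by
  obtain ⟨γ, h1, h2⟩ := hE.torus_lies ⟨hE.parD p, hE.parD_mem p⟩ p.1.2
  refine ⟨γ, h1, fun v x => ?_⟩
  rw [h2 v x]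
  congr 1
  have hcc : ((p.1.1 : Fˣ) : F)⁻¹ = ((p.1.1 : Fˣ) : F) :=
    inv_eq_of_mul_eq_one_right (by rw [← Units.val_mul, p.2.1, Units.val_one])
  rcases x with m | m <;> rcases eq_or_ne m hE.o0 with rfl | h0
  · simp [Ext.parD, Ext.thetaW]
  · rcases eq_or_ne m hE.o1 with rfl | h1
    · simp [Ext.parD, Ext.thetaW]
    · simp [Ext.parD, Ext.thetaW, h0, h1]
  · simp [Ext.parD, Ext.thetaW, hcc, mul_assoc, mul_left_comm]
  · rcases eq_or_ne m hE.o1 with rfl | h1
    · simp [Ext.parD, Ext.thetaW, hcc, mul_assoc, mul_left_comm]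
    · simp [Ext.parD, Ext.thetaW, h0, h1, hcc]

theorem Ext.psi_mem_ker (p : Par l F) : hE.psi p ∈ π.ker := by
  obtain ⟨γ, ⟨h1, h2⟩, h3⟩ := hE.psi_lies p
  rw [MonoidHom.mem_ker, h2, QuotientGroup.mk'_apply, QuotientGroup.eq_one_iff,
    mem_center_iff hE.three_le]
  refine ⟨((p.1.1 : Fˣ) : F), by rw [← Units.val_mul, p.2.1, Units.val_one],
    Matrix.ext_iff_mulVec.2 fun v => funext fun x => ?_⟩
  rw [Matrix.smul_mulVec, Matrix.one_mulVec, Pi.smul_apply, smul_eq_mul]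
  exact h3 v x

/-- The kernel is the image of the parameters. -/
theorem Ext.ker_eq_psi (hker : π.ker ≤ commutator E) : π.ker = hE.psi.range := by
  classical
  refine le_antisymm (fun g hg => ?_) (by rintro _ ⟨p, rfl⟩; exact hE.psi_mem_ker p)
  obtain ⟨⟨d, s⟩, rfl⟩ := hE.ker_le_torus hker hg
  obtain ⟨γ, hl, hm⟩ := hE.torus_lies d s
  obtain ⟨c, hc, hcv⟩ := (Lies.one (π := π)).scalar hE.three_le (g := 1) (δ := γ) (by
    obtain ⟨h1, h2⟩ := hl
    exact ⟨h1, by rw [map_one, ← h2]; exact hg.symm⟩)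
  have hc0 : c ≠ 0 := fun e => by rw [e, zero_mul] at hc; exact zero_ne_one hc
  have hw : ∀ x, Sum.elim (fun m => (d.1 m : F)) (fun m => (d.1 m : F)⁻¹) x * hE.thetaW s x = c := by
    intro x
    have e := congrFun (hcv (Pi.single x 1)) x
    rw [Pi.smul_apply, mat_one, Matrix.one_mulVec, Pi.single_eq_same, smul_eq_mul, mul_one] at e
    rw [← e]
    have e2 := hm (Pi.single x 1) x
    rw [Equiv.Perm.one_apply, Pi.single_eq_same, mul_one] at e2
    exact e2.symm
  set cu : Fˣ := Units.mk0 c hc0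
  have hd : ∀ m, d.1 m = if m = hE.o0 ∨ m = hE.o1 then cu * s⁻¹ else cu := by
    intro m
    have e := hw (.inl m)
    split_ifs with h
    · rw [eq_mul_inv_iff_mul_eq]
      refine Units.ext ?_
      rcases h with rfl | rfl <;> simpa [Ext.thetaW, cu] using e
    · refine Units.ext ?_
      rw [not_or] at h
      simpa [Ext.thetaW, cu, h.1, h.2] using e
  have h2 : s * s = cu ^ l := by
    have hp : ∏ m, d.1 m = (1 : Fˣ) := d.2
    have hfun : d.1 = Pi.mulSingle hE.o0 s⁻¹ * Pi.mulSingle hE.o1 s⁻¹ * fun _ => cu := by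
      funext m
      simp only [hd, Pi.mul_apply, Pi.mulSingle_apply]
      by_cases h0 : m = hE.o0
      · simp [h0, hE.o_ne, mul_comm]
      · by_cases h1 : m = hE.o1
        · simp [h1, hE.o_ne.symm, mul_comm]
        · simp [h0, h1]
    rw [hfun] at hp
    simp only [Pi.mul_apply, Finset.prod_mul_distrib, Fintype.prod_pi_mulSingle', Finset.prod_const,
      Finset.card_univ, Fintype.card_fin] at hp
    rw [← mul_inv, inv_mul_eq_one] at hp
    exact hp
  refine ⟨⟨(cu, s), ⟨Units.ext (by simpa [cu] using hc), h2⟩⟩, ?_⟩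
  rw [Ext.psi, MonoidHom.comp_apply]
  congr 1
  exact Prod.ext (Subtype.ext (funext fun m => (hd m).symm)) rfl

/-- The kernel is no larger than the parameter group. -/
theorem Ext.card_ker_le (hker : π.ker ≤ commutator E) :
    Nat.card π.ker ≤ Nat.card (Par l F) := by
  rw [hE.ker_eq_psi hker]
  exact Nat.card_le_card_of_surjective _ hE.psi.rangeRestrict_surjective

end Cfsg.Agent.DType
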