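import Cfsg.Agent.DType.Weyl
import Cfsg.Agent.CentralExt.TypeA

/-!
# Root elements in central extensions of `PΩ⁺`

In a central extension of `PΩ⁺_{2l}(q)`, `l ≥ 4`, `(l, q) ≠ (4, 2)`, the commutators of lifts of
root elements satisfy Steinberg's relations.
-/

set_option autoImplicit false
set_option linter.unusedSectionVars false

namespace Cfsg.Agent.DType

open Cfsg.Agent.CentralExt Cfsg.Agent.CentralExt.Laced Cfsg.Agent.CentralExt.TypeA
open scoped commutatorElement

universe u v

variable {F : Type u} [Field F] [Finite F] {l : ℕ} {E : Type v} [Group E]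

/-- The projection of `Ω` to `PΩ`. -/
abbrev proj : Omega F (Q l F) →* POmega F (Q l F) := QuotientGroup.mk' _

/-- A central extension of `PΩ⁺` to which root elements lift. -/
structure Ext (π : E →* POmega F (Q l F)) : Prop where
  four_le : 4 ≤ l
  exc : l = 4 → Nat.card F ≠ 2
  surj : Function.Surjective π
  central : IsCentralMap π

/-- `g` lies over the isometry `γ`. -/
def Lies (π : E →* POmega F (Q l F)) (g : E) (γ : isometryGroup F (Q l F)) : Prop :=
  ∃ h : γ ∈ Omega F (Q l F), π g = proj ⟨γ, h⟩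

section

variable {π : E →* POmega F (Q l F)}

theorem Lies.mul {g k : E} {γ δ : isometryGroup F (Q l F)} (hg : Lies π g γ) (hk : Lies π k δ) :
    Lies π (g * k) (γ * δ) := by
  obtain ⟨h1, e1⟩ := hg
  obtain ⟨h2, e2⟩ := hk
  exact ⟨mul_mem h1 h2, by rw [map_mul, e1, e2]; rfl⟩

theorem Lies.inv {g : E} {γ : isometryGroup F (Q l F)} (hg : Lies π g γ) : Lies π g⁻¹ γ⁻¹ := by
  obtain ⟨h1, e1⟩ := hg
  exact ⟨inv_mem h1, by rw [map_inv, e1]; rfl⟩

theorem Lies.eq {g k : E} {γ : isometryGroup F (Q l F)} (hg : Lies π g γ) (hk : Lies π k γ) :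
    π g = π k := by
  obtain ⟨h1, e1⟩ := hg
  obtain ⟨h2, e2⟩ := hk
  rw [e1, e2]

theorem Lies.one : Lies π (1 : E) 1 := ⟨one_mem _, by rw [map_one]; rfl⟩

theorem Lies.commutator {g k : E} {γ δ : isometryGroup F (Q l F)} (hg : Lies π g γ)
    (hk : Lies π k δ) : Lies π ⁅g, k⁆ ⁅γ, δ⁆ := ((hg.mul hk).mul hg.inv).mul hk.inv

theorem Lies.commute {g k : E} {γ δ : isometryGroup F (Q l F)} (hg : Lies π g γ) (hk : Lies π k δ)
    (h : Commute γ δ) : Commute (π g) (π k) := by
  have e := (hg.mul hk).eq (h.eq ▸ hk.mul hg)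
  rwa [map_mul, map_mul] at e

/-- `g` lies over a root element. -/
abbrev Is (π : E →* POmega F (Q l F)) (g : E) (a b : I l) (t : F) : Prop := Lies π g (X a b t)

variable (hE : Ext π)
include hE

theorem Ext.three_le : 3 ≤ l := by have := hE.four_le; omega

theorem Ext.exists_lies {γ : isometryGroup F (Q l F)} (h : γ ∈ Omega F (Q l F)) :
    ∃ g, Lies π g γ := by
  obtain ⟨g, hg⟩ := hE.surj (proj ⟨γ, h⟩)
  exact ⟨g, h, hg⟩

/-- A lift of a root element. -/
noncomputable def Ext.L (a b : I l) (t : F) : E :=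
  (hE.exists_lies (X_mem_Omega hE.three_le a b t)).choose

theorem Ext.L_spec (a b : I l) (t : F) : Is π (hE.L a b t) a b t :=
  (hE.exists_lies (X_mem_Omega hE.three_le a b t)).choose_spec

theorem Ext.comm_eq {x x' y y' : E} {γ δ : isometryGroup F (Q l F)} (hx : Lies π x γ)
    (hx' : Lies π x' γ) (hy : Lies π y δ) (hy' : Lies π y' δ) : ⁅x', y'⁆ = ⁅x, y⁆ :=
  lift_comm_eq hE.central (hx'.eq hx) (hy'.eq hy)

theorem Ext.is_conj {g x : E} {γ : isometryGroup F (Q l F)} {σ : Equiv.Perm (I l)} {w : I l → F}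
    (hγ : IsMono γ σ w) (hg : Lies π g γ) {a b : I l} (hab : ix a ≠ ix b) {t : F}
    (hx : Is π x a b t) : Is π (g * x * g⁻¹) (σ a) (σ b) (w a * w b * t) :=
  by
  have := (hg.mul hx).mul hg.inv
  rwa [(hγ.conj hab t).2] at this

theorem Ext.exists_idx (S : Finset (Fin l)) (h : S.card < l) : ∃ m : I l, ix m ∉ S := by
  obtain ⟨m, -, hm⟩ := Finset.exists_mem_notMem_of_card_lt_card (s := S)
    (t := Finset.univ) (by rwa [Finset.card_univ, Fintype.card_fin])
  exact ⟨.inl m, hm⟩

theorem Ext.exists_third (i j k : Fin l) : ∃ m : I l, ix m ≠ i ∧ ix m ≠ j ∧ ix m ≠ k := by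
  obtain ⟨m, hm⟩ := hE.exists_idx {i, j, k}
    (lt_of_le_of_lt Finset.card_le_three (by have := hE.four_le; omega))
  simp only [Finset.mem_insert, Finset.mem_singleton, not_or] at hm
  exact ⟨m, hm⟩

theorem Ext.commute_spare {a b c d m : I l} (hab : ix a ≠ ix b) (hcd : ix c ≠ ix d)
    (h1 : c ≠ bar a) (h2 : c ≠ bar b) (h3 : d ≠ bar a) (h4 : d ≠ bar b) (ma : ix m ≠ ix a)
    (mb : ix m ≠ ix b) (mc : ix m ≠ ix c) (md : ix m ≠ ix d) {t u : F} {x y : E}
    (hx : Is π x a b t) (hy : Is π y c d u) : Commute x y := by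
  refine commute_of_decomp hE.central (a := hE.L c m u) (b := hE.L (bar m) d 1) ?_ ?_ ?_
  · exact hx.commute (hE.L_spec c m u) (X_commute hab mc.symm h1 h2
      (ne_of_ix (by simpa using ma)) (ne_of_ix (by simpa using mb)) _ _)
  · exact hx.commute (hE.L_spec (bar m) d 1) (X_commute hab (by simpa using md)
      (ne_of_ix (by simpa using ma)) (ne_of_ix (by simpa using mb)) h3 h4 _ _)
  · rw [← map_commutatorElement]
    refine hy.eq ?_
    have e := (hE.L_spec c m u).commutator (hE.L_spec (bar m) d 1)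
    rwa [X_commutator mc.symm md hcd, mul_one] at e

theorem Ext.pair_add {a b c d : I l} (hab : ix a ≠ ix b) (t t' u : F)
    (hcen : ∀ g, Commute g ⁅hE.L a b t', hE.L c d u⁆) :
    ⁅hE.L a b (t + t'), hE.L c d u⁆ = ⁅hE.L a b t, hE.L c d u⁆ * ⁅hE.L a b t', hE.L c d u⁆ := by
  have hs : Is π (hE.L a b t * hE.L a b t') a b (t + t') := by
    have := (hE.L_spec a b t).mul (hE.L_spec a b t')
    rwa [X_add hab] at this
  rw [hE.comm_eq hs (hE.L_spec a b (t + t')) (hE.L_spec c d u) (hE.L_spec c d u), comm_mul_left,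
    (hcen _).eq, mul_inv_cancel_right, (hcen _).eq]

/-- Disjoint roots in rank four. -/
theorem Ext.commute_disjoint (h4 : l = 4) {a b c d : I l} (hab : ix a ≠ ix b) (hcd : ix c ≠ ix d)
    (hac : ix a ≠ ix c) (had : ix a ≠ ix d) (hbc : ix b ≠ ix c) (hbd : ix b ≠ ix d)
    {t u : F} {x y : E} (hx : Is π x a b t) (hy : Is π y c d u) : Commute x y := by
  classical
  haveI : Fintype F := Fintype.ofFinite F
  refine lift_commute hE.central (x := hE.L a b t) (y := hE.L c d u) (hx.eq (hE.L_spec a b t))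
    (hy.eq (hE.L_spec c d u)) ?_
  set B : F → F → E := fun t u => ⁅hE.L a b t, hE.L c d u⁆ with hB
  have hcom : ∀ t u : F, Commute (X a b t) (X c d u) := fun t u => X_commute hab hcd
    (ne_of_ix (by simpa using hac.symm)) (ne_of_ix (by simpa using hbc.symm))
    (ne_of_ix (by simpa using had.symm)) (ne_of_ix (by simpa using hbd.symm)) t u
  have hcen : ∀ t u g, Commute g (B t u) := fun t u g => hE.central _ (by
    rw [map_commutatorElement, commutatorElement_eq_one_iff_mul_comm]
    exact (hE.L_spec a b t).commute (hE.L_spec c d u) (hcom t u)) g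
  have hadd : ∀ t t' u, B (t + t') u = B t u * B t' u := fun t t' u =>
    hE.pair_add hab t t' u (hcen t' u)
  rw [commute_iff_eq, ← commutatorElement_eq_one_iff_mul_comm]
  change B t u = 1
  have hq2 : 3 ≤ Fintype.card F := by
    have h1 := hE.exc h4
    rw [Nat.card_eq_fintype_card] at h1
    have h2 : 2 ≤ Fintype.card F := Fintype.one_lt_card
    omega
  by_cases hq3 : Fintype.card F = 3
  · have h0 : ∀ u, B 0 u = 1 := fun u => by
      have := hadd 0 0 u; rw [add_zero] at this; exact mul_eq_left.1 this.symm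
    have hac' : ix a ≠ ix (bar c) := by simpa using hac
    have hbd' : ix b ≠ ix (bar d) := by simpa using hbd
    have hm := (isMono_Ww hac' (one_ne_zero (α := F))).mul (isMono_Ww hbd' (one_ne_zero (α := F)))
    obtain ⟨g, hg⟩ := hE.exists_lies
      (mul_mem (Ww_mem_Omega hE.three_le a (bar c) (1 : F)) (Ww_mem_Omega hE.three_le b (bar d) 1))
    have hswap : ∀ t u, B t u = (B u t)⁻¹ := by
      intro t u
      have e1 := hE.is_conj hm hg hab (hE.L_spec a b t)
      have e2 := hE.is_conj hm hg hcd (hE.L_spec c d u)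
      have n : ∀ {x y : I l}, ix x ≠ ix y → x ≠ y ∧ y ≠ x ∧ bar x ≠ y ∧ y ≠ bar x ∧
          x ≠ bar y ∧ bar y ≠ x ∧ bar x ≠ bar y ∧ bar y ≠ bar x := fun {x y} h =>
        ⟨ne_of_ix h, ne_of_ix h.symm, ne_of_ix (by simpa using h), ne_of_ix (by simpa using h.symm),
          ne_of_ix (by simpa using h), ne_of_ix (by simpa using h.symm), ne_of_ix (by simpa using h),
          ne_of_ix (by simpa using h.symm)⟩
      simp [sw, ww, Equiv.swap_apply_of_ne_of_ne, n hab, n hcd, n hac, n had, n hbc, n hbd,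
        bar_ne, ne_bar] at e1 e2
      have e := hE.comm_eq (hE.L_spec c d t) e1 (hE.L_spec a b u) e2
      rw [← conjugate_commutatorElement, (hcen t u g).eq, mul_inv_cancel_right,
        ← commutatorElement_inv] at e
      exact e
    have hthree : (3 : F) = 0 := by
      have := FiniteField.cast_card_eq_zero F; rw [hq3] at this; exact_mod_cast this
    have hself : ∀ s, B s s = 1 := fun s => by
      have h2 : B s s * B s s = 1 := mul_eq_one_iff_eq_inv.2 (hswap s s)
      have h3 : B s s * B s s * B s s = 1 := by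
        rw [← hadd, ← hadd, ← h0 s]; congr 1; linear_combination s * hthree
      rwa [h2, one_mul] at h3
    rcases eq_or_ne t 0 with rfl | ht
    · exact h0 u
    rcases eq_or_ne u 0 with rfl | hu
    · rw [hswap, h0, inv_one]
    have hunit : ∀ z : F, z ≠ 0 → z = 1 ∨ z = -1 := fun z hz => by
      have := FiniteField.pow_card_sub_one_eq_one z hz
      rw [hq3] at this
      exact sq_eq_one_iff.1 this
    have htu : t = u ∨ t = -u := by
      rcases hunit t ht with rfl | rfl <;> rcases hunit u hu with rfl | rfl <;> simp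
    rcases htu with rfl | rfl
    · exact hself t
    · have := hadd (-u) u u
      rw [neg_add_cancel, h0, hself, mul_one] at this
      exact this.symm
  · obtain ⟨s, hs, hs2⟩ : ∃ s : F, s ≠ 0 ∧ s ^ 2 ≠ 1 := exists_pow_ne_one fun hd => by
      have := Nat.le_of_dvd (by norm_num) hd
      omega
    have hac' : ix a ≠ ix (bar c) := by simpa using hac
    have hbc' : ix b ≠ ix (bar c) := by simpa using hbc
    have hm := ((isMono_Hh hac' hs).mul (isMono_Hh hbc' hs)).mul (isMono_Hh hcd hs)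
    obtain ⟨g, hg⟩ := hE.exists_lies (mul_mem (mul_mem (Hh_mem_Omega hE.three_le a (bar c) s)
      (Hh_mem_Omega hE.three_le b (bar c) s)) (Hh_mem_Omega hE.three_le c d s))
    have n : ∀ {x y : I l}, ix x ≠ ix y → x ≠ y ∧ y ≠ x ∧ bar x ≠ y ∧ y ≠ bar x ∧
        x ≠ bar y ∧ bar y ≠ x ∧ bar x ≠ bar y ∧ bar y ≠ bar x := fun {x y} h =>
      ⟨ne_of_ix h, ne_of_ix h.symm, ne_of_ix (by simpa using h), ne_of_ix (by simpa using h.symm),
        ne_of_ix (by simpa using h), ne_of_ix (by simpa using h.symm), ne_of_ix (by simpa using h),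
        ne_of_ix (by simpa using h.symm)⟩
    have hne : s ^ 2 - 1 ≠ 0 := sub_ne_zero.2 hs2
    set r := t / (s ^ 2 - 1) with hr
    have e1 := hE.is_conj hm hg hab (hE.L_spec a b r)
    have e2 := hE.is_conj hm hg hcd (hE.L_spec c d u)
    simp [hw, n hab, n hcd, n hac, n had, n hbc, n hbd, bar_ne, ne_bar, hs] at e1 e2
    have e1' : Is π (g * hE.L a b r * g⁻¹) a b (t + r) := by
      convert e1 using 2
      rw [hr]; field_simp; ring
    have e := hE.comm_eq (hE.L_spec a b (t + r)) e1' (hE.L_spec c d u) e2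
    rw [← conjugate_commutatorElement, (hcen r u g).eq, mul_inv_cancel_right] at e
    have e' : B r u = B t u * B r u := e.trans (hadd t r u)
    exact mul_eq_right.1 e'.symm

/-- Lifts of commuting roots commute. -/
theorem Ext.rc {a b c d : I l} (hab : ix a ≠ ix b) (hcd : ix c ≠ ix d) (h1 : c ≠ bar a)
    (h2 : c ≠ bar b) (h3 : d ≠ bar a) (h4 : d ≠ bar b) {t u : F} {x y : E} (hx : Is π x a b t)
    (hy : Is π y c d u) : Commute x y := by
  classical
  by_cases hsp : ∃ m : I l, ix m ∉ ({ix a, ix b, ix c, ix d} : Finset (Fin l))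
  · obtain ⟨m, hm⟩ := hsp
    simp only [Finset.mem_insert, Finset.mem_singleton, not_or] at hm
    exact hE.commute_spare hab hcd h1 h2 h3 h4 hm.1 hm.2.1 hm.2.2.1 hm.2.2.2 hx hy
  have hge : l ≤ ({ix a, ix b, ix c, ix d} : Finset (Fin l)).card :=
    not_lt.1 fun h => hsp (hE.exists_idx _ h)
  have h4l := hE.four_le
  have hle : ({ix a, ix b, ix c, ix d} : Finset (Fin l)).card ≤ 4 := Finset.card_le_four
  have small : ∀ s : Finset (Fin l), ({ix a, ix b, ix c, ix d} : Finset (Fin l)) ⊆ s →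
      s.card ≤ 3 → False := fun s hs hc => by
    have := (Finset.card_le_card hs).trans hc
    omega
  refine hE.commute_disjoint (by omega) hab hcd ?_ ?_ ?_ ?_ hx hy <;> intro e
  · exact small {ix b, ix c, ix d} (by rw [e]; intro z; simp +contextual) Finset.card_le_three
  · exact small {ix b, ix c, ix d} (by rw [e]; intro z; simp +contextual) Finset.card_le_three
  · exact small {ix a, ix c, ix d} (by rw [e]; intro z; simp +contextual) Finset.card_le_three
  · exact small {ix a, ix c, ix d} (by rw [e]; intro z; simp +contextual) Finset.card_le_three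

/-- Three indices of distinct planes. -/
def Tri (a m c : I l) : Prop := ix a ≠ ix m ∧ ix m ≠ ix c ∧ ix a ≠ ix c

/-- The commutator of lifts through a middle index. -/
noncomputable def Ext.P (a m c : I l) (t u : F) : E := ⁅hE.L a m t, hE.L (bar m) c u⁆

theorem Ext.P_spec {a m c : I l} (h : Tri a m c) (t u : F) : Is π (hE.P a m c t u) a c (t * u) := by
  have := (hE.L_spec a m t).commutator (hE.L_spec (bar m) c u)
  rwa [X_commutator h.1 h.2.1 h.2.2] at this

theorem Ext.P_add_left {a m c : I l} (h : Tri a m c) (t t' u : F) :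
    hE.P a m c (t + t') u = hE.P a m c t u * hE.P a m c t' u := by
  obtain ⟨ham, hmc, hac⟩ := h
  have hs : Is π (hE.L a m t * hE.L a m t') a m (t + t') := by
    have := (hE.L_spec a m t).mul (hE.L_spec a m t')
    rwa [X_add ham] at this
  rw [Ext.P, hE.comm_eq hs (hE.L_spec a m (t + t')) (hE.L_spec (bar m) c u) (hE.L_spec (bar m) c u),
    comm_mul_left, ← Ext.P, ← Ext.P,
    (hE.rc ham hac (ne_bar a) (ne_of_ix (by simpa using ham)) (ne_of_ix (by simpa using hac.symm))
      (ne_of_ix (by simpa using hmc.symm)) (hE.L_spec a m t)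
      (hE.P_spec ⟨ham, hmc, hac⟩ t' u)).eq, mul_inv_cancel_right]
  exact (hE.rc hac hac (ne_bar a) (ne_of_ix (by simpa using hac))
    (ne_of_ix (by simpa using hac.symm)) (ne_bar c) (hE.P_spec ⟨ham, hmc, hac⟩ t' u)
    (hE.P_spec ⟨ham, hmc, hac⟩ t u)).eq

theorem Ext.P_link {a m n c : I l} (hm : Tri a m c) (hn : Tri a n c) (hmn : ix m ≠ ix n)
    (t s u : F) : hE.P a n c (t * s) u = hE.P a m c t (s * u) := by
  obtain ⟨ham, hmc, hac⟩ := hm
  obtain ⟨han, hnc, -⟩ := hn
  have hA : Is π ⁅hE.L a m t, hE.L (bar m) n s⁆ a n (t * s) := hE.P_spec ⟨ham, hmn, han⟩ t s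
  have hQ : Is π ⁅hE.L (bar m) n s, hE.L (bar n) c u⁆ (bar m) c (s * u) :=
    hE.P_spec (a := bar m) ⟨by simpa using hmn, hnc, by simpa using hmc⟩ s u
  have hC : Is π ⁅hE.L a m t, ⁅hE.L (bar m) n s, hE.L (bar n) c u⁆⁆ a c (t * (s * u)) := by
    have := (hE.L_spec a m t).commutator hQ
    rwa [X_commutator ham hmc hac] at this
  rw [Ext.P, hE.comm_eq hA (hE.L_spec a n (t * s)) (hE.L_spec (bar n) c u) (hE.L_spec (bar n) c u),
    Ext.P, hE.comm_eq (hE.L_spec a m t) (hE.L_spec a m t) hQ (hE.L_spec (bar m) c (s * u))]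
  exact hall_witt
    (hE.rc ham (by simpa using hnc) (ne_of_ix (by simpa using han.symm))
      (ne_of_ix (by simpa using hmn.symm)) (ne_of_ix (by simpa using hac.symm))
      (ne_of_ix (by simpa using hmc.symm)) (hE.L_spec a m t) (hE.L_spec (bar n) c u))
    (hE.rc han (by simpa using hmc) (ne_of_ix (by simpa using ham.symm))
      (ne_of_ix (by simpa using hmn)) (ne_of_ix (by simpa using hac.symm))
      (ne_of_ix (by simpa using hnc.symm)) hA hQ)
    (hE.rc hac (by simpa using hmc) (ne_of_ix (by simpa using ham.symm))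
      (ne_of_ix (by simpa using hmc)) (ne_of_ix (by simpa using hac.symm)) (ne_bar c) hC hQ)

theorem Ext.P_indep {a m n c : I l} (hm : Tri a m c) (hn : Tri a n c) (t u : F) :
    hE.P a n c t u = hE.P a m c t u := by
  have key : ∀ {p q : I l}, Tri a p c → Tri a q c → ix p ≠ ix q → ∀ t u : F,
      hE.P a q c t u = hE.P a p c t u := by
    intro p q hp hq hpq t u
    have := hE.P_link hp hq hpq t 1 u
    rwa [mul_one, one_mul] at this
  by_cases hmn : ix m = ix n
  · obtain ⟨k, k1, k2, k3⟩ := hE.exists_third (ix a) (ix c) (ix m)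
    have hk : Tri a k c := ⟨k1.symm, k2, hm.2.2⟩
    rw [key hk hn (hmn ▸ k3) t u, key hm hk k3.symm t u]
  · exact key hm hn hmn t u

theorem Ext.P_balanced {a m c : I l} (hm : Tri a m c) (t s u : F) :
    hE.P a m c (t * s) u = hE.P a m c t (s * u) := by
  obtain ⟨k, k1, k2, k3⟩ := hE.exists_third (ix a) (ix c) (ix m)
  have hk : Tri a k c := ⟨k1.symm, k2, hm.2.2⟩
  rw [← hE.P_link hm hk k3.symm t s u, hE.P_indep hm hk]

/-- The middle index. -/
noncomputable def Ext.mid (a c : I l) : I l :=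
  (exists_ix_ne hE.three_le (ix a) (ix c)).choose

theorem Ext.mid_spec {a c : I l} (h : ix a ≠ ix c) : Tri a (hE.mid a c) c :=
  ⟨(exists_ix_ne hE.three_le (ix a) (ix c)).choose_spec.1.symm,
    (exists_ix_ne hE.three_le (ix a) (ix c)).choose_spec.2, h⟩

/-- The distinguished lift of a root element. -/
noncomputable def Ext.Z (a c : I l) (t : F) : E := hE.P a (hE.mid a c) c t 1

theorem Ext.Z_spec {a c : I l} (h : ix a ≠ ix c) (t : F) : Is π (hE.Z a c t) a c t := by
  have := hE.P_spec (hE.mid_spec h) t 1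
  rwa [mul_one] at this

theorem Ext.P_eq_Z {a m c : I l} (hm : Tri a m c) (t u : F) :
    hE.P a m c t u = hE.Z a c (t * u) := by
  have hb := hE.P_balanced hm t u 1
  rw [mul_one] at hb
  rw [← hb, Ext.Z, hE.P_indep hm (hE.mid_spec hm.2.2)]

theorem Ext.comm_eq_Z {a m c : I l} (hm : Tri a m c) {t u : F} {x y : E} (hx : Is π x a m t)
    (hy : Is π y (bar m) c u) : ⁅x, y⁆ = hE.Z a c (t * u) := by
  rw [← hE.P_eq_Z hm, Ext.P]
  exact hE.comm_eq (hE.L_spec a m t) hx (hE.L_spec (bar m) c u) hy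

theorem Ext.Z_add {a c : I l} (h : ix a ≠ ix c) (t u : F) :
    hE.Z a c (t + u) = hE.Z a c t * hE.Z a c u := hE.P_add_left (hE.mid_spec h) t u 1

theorem Ext.Z_zero {a c : I l} (h : ix a ≠ ix c) : hE.Z a c 0 = 1 :=
  mul_eq_left.1 (by rw [← hE.Z_add h, add_zero] : hE.Z a c 0 * hE.Z a c 0 = hE.Z a c 0)

theorem Ext.Z_inv {a c : I l} (h : ix a ≠ ix c) (t : F) : (hE.Z a c t)⁻¹ = hE.Z a c (-t) :=
  inv_eq_of_mul_eq_one_right (by rw [← hE.Z_add h, add_neg_cancel, hE.Z_zero h])

theorem Ext.Z_swap {a c : I l} (h : ix a ≠ ix c) (t : F) : hE.Z c a t = hE.Z a c (-t) := by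
  obtain ⟨ham, hmc, -⟩ := hE.mid_spec h
  set m := hE.mid a c
  have hmc' : ix (bar m) ≠ ix c := by simpa using hmc
  have hy : Is π (hE.L c (bar m) t) (bar m) c (-t) := by
    have := hE.L_spec c (bar m) t
    rwa [Is, X_swap hmc'] at this
  have hx : Is π (hE.L m a 1) a m (-1) := by
    have := hE.L_spec m a (1 : F)
    rwa [Is, X_swap ham] at this
  have e := hE.comm_eq_Z (a := c) (m := bar m) (c := a) (x := hE.L c (bar m) t) (y := hE.L m a 1)
    ⟨hmc'.symm, by simpa using ham.symm, h.symm⟩ (hE.L_spec _ _ _)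
    (by simpa using hE.L_spec m a (1 : F))
  rw [mul_one] at e
  rw [← e, ← commutatorElement_inv, hE.comm_eq_Z ⟨ham, hmc, h⟩ hx hy, hE.Z_inv h]
  congr 1
  ring

theorem Ext.Z_comm {a b c : I l} (h : Tri a b c) (t u : F) :
    ⁅hE.Z a b t, hE.Z (bar b) c u⁆ = hE.Z a c (t * u) :=
  hE.comm_eq_Z h (hE.Z_spec h.1 t) (hE.Z_spec (by simpa using h.2.1) u)

theorem Ext.Z_conj {g : E} {γ : isometryGroup F (Q l F)} {σ : Equiv.Perm (I l)} {w : I l → F}
    (hγ : IsMono γ σ w) (hg : Lies π g γ) {a c : I l} (h : ix a ≠ ix c) (t : F) :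
    g * hE.Z a c t * g⁻¹ = hE.Z (σ a) (σ c) (w a * w c * t) := by
  obtain ⟨ham, hmc, -⟩ := hE.mid_spec h
  set m := hE.mid a c
  have hmc' : ix (bar m) ≠ ix c := by simpa using hmc
  have hx := hE.is_conj hγ hg ham (hE.L_spec a m t)
  have hy := hE.is_conj hγ hg hmc' (hE.L_spec (bar m) c (1 : F))
  rw [(hγ.perm_bar m).1] at hy
  have hT : Tri (σ a) (σ m) (σ c) :=
    ⟨(hγ.conj ham t).1, by simpa [(hγ.perm_bar m).1] using (hγ.conj hmc' t).1, (hγ.conj h t).1⟩
  rw [Ext.Z, Ext.P, conjugate_commutatorElement, hE.comm_eq_Z hT hx hy]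
  congr 1
  linear_combination (w a * w c * t) * (hγ.perm_bar m).2

/-- Lifts of two roots sharing one index up to sign commute. -/
theorem Ext.rc_bar {a m : I l} (ham : ix a ≠ ix m) {t v : F} {A B : E} (hA : Is π A a m t)
    (hB : Is π B a (bar m) v) : Commute A B := by
  rcases eq_or_ne t 0 with rfl | ht
  · refine Commute.symm (hE.central A ?_ B)
    rw [Is, X_zero ham] at hA
    rw [hA.eq Lies.one, map_one]
  obtain ⟨c, c1, c2, -⟩ := hE.exists_third (ix a) (ix m) (ix m)
  have hac : ix a ≠ ix c := c1.symm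
  set u := -(v / t) with hu
  set x := hE.L a (bar c) t
  set y := hE.L c m (1 : F)
  set z := hE.L (bar m) c u
  have hxy : Is π ⁅x, y⁆ a m t := by
    have := (hE.L_spec a (bar c) t).commutator (hE.L_spec c m (1 : F))
    have e := X_commutator (F := F) (a := a) (b := bar c) (c := m) (by simpa using hac)
      (by simpa using c2) ham t 1
    rw [bar_bar] at e
    rwa [e, mul_one] at this
  have hmc : ix (bar m) ≠ ix c := by simpa using c2.symm
  have hxz : Is π ⁅x, z⁆ a (bar m) v := by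
    have := (hE.L_spec a (bar c) t).commutator (hE.L_spec (bar m) c u)
    have e := X_commutator (F := F) (a := a) (b := bar c) (c := bar m) (by simpa using hac)
      (by simpa using c2) (by simpa using ham) t (-u)
    rw [bar_bar, ← X_inv hmc.symm] at e
    rw [X_swap hmc.symm, ← X_inv hmc.symm, e] at this
    convert this using 2
    rw [hu]; field_simp
  set A' := ⁅x, y⁆
  set B' := ⁅x, z⁆
  refine lift_commute hE.central (x := A') (y := B') (hA.eq hxy) (hB.eq hxz) ?_
  have hzy : Commute (π z) (π y) := by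
    refine (hE.L_spec (bar m) c u).commute (hE.L_spec c m (1 : F)) ?_
    rw [X_swap c2.symm (1 : F)]
    exact (X_commute_bar c2.symm (-1) u).symm
  have step : z * A' * z⁻¹ = ⁅B'⁻¹ * x, y⁆ := by
    rw [conjugate_commutatorElement]
    refine lift_comm_eq hE.central ?_ ?_
    · congr 1
      simp only [B', commutatorElement_def]; group
    · rw [map_mul, map_mul, map_inv, hzy.eq, mul_inv_cancel_right]
  have hJ1 : ⁅z, A'⁆ = hE.Z a c (-(t * u)) := by
    rw [← commutatorElement_inv, hE.comm_eq_Z ⟨ham, c2.symm, hac⟩ hxy (hE.L_spec (bar m) c u),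
      hE.Z_inv hac]
  have hJ2 : ⁅B'⁻¹, y⁆ = hE.Z a c (-(t * u)) := by
    have hB' : Is π B'⁻¹ a (bar m) (-v) := by
      have := hxz.inv
      rwa [X_inv (by simpa using ham)] at this
    have hy' : Is π y (bar (bar m)) c (-1) := by
      have := hE.L_spec c m (1 : F)
      rw [Is, X_swap c2.symm] at this
      simpa using this
    rw [hE.comm_eq_Z ⟨by simpa using ham, hmc, hac⟩ hB' hy']
    congr 1
    rw [hu]; field_simp
  have hcomm : Commute (hE.Z a c (-(t * u))) A' := (hE.rc ham hac (ne_bar a)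
    (ne_of_ix (by simpa using ham)) (ne_of_ix (by simpa using c1))
    (ne_of_ix (by simpa using c2)) hxy (hE.Z_spec hac _)).symm
  have e : hE.Z a c (-(t * u)) * A' = B'⁻¹ * A' * B' * hE.Z a c (-(t * u)) := by
    rw [← hJ1]
    conv_rhs => rw [hJ1, ← hJ2]
    calc ⁅z, A'⁆ * A' = z * A' * z⁻¹ := by simp only [commutatorElement_def]; group
      _ = _ := by rw [step, comm_mul_left, inv_inv]
  rw [hcomm.eq] at e
  have e' := mul_right_cancel e
  rw [mul_assoc, eq_inv_mul_iff_mul_eq] at e'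
  exact e'.symm

end

end Cfsg.Agent.DType
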