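import Cfsg.Agent.DType.Spin

/-!
# The Schur multiplier of `PΩ⁺_{2l}(q)`
-/

set_option autoImplicit false
set_option linter.unusedSectionVars false

namespace Cfsg.Agent.DType

open Cfsg.Agent.CentralExt Cfsg.Agent.CentralExt.TypeA
open scoped commutatorElement Matrix MatrixGroups

universe u

noncomputable section

variable {F : Type u} [Field F] {l : ℕ}

theorem bv_mul_mul {a b : I l} (h : ix a ≠ ix b) :
    (bv a b : CA l F) * bv (bar b) (bar a) * bv a b = bv a b := by
  have e1 : (ev (bar a) : CA l F) * (ev a * ev b) = ev b - ev a * (ev (bar a) * ev b) :=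
    eq_sub_of_add_eq' (ev_bar_mul a _)
  have e2 : (ev b : CA l F) * (ev (bar b) * ev b) = ev b := by
    have := ev_bar_mul (F := F) b (ev b)
    rwa [ev_mul_self, mul_zero, add_zero] at this
  simp only [bv, mul_assoc]
  rw [e1, mul_sub, mul_sub, mul_sub, e2,
    ev_comm' (a := bar b) (b := a) (by rw [bar_bar]; exact ne_of_ix h), mul_neg,
    ev_comm' (a := b) (b := a) (ne_of_ix (by simpa using h)), neg_neg, ev_mul_self', sub_zero]

/-- The torus unit at `-1`. -/
def tu (a b : I l) : CA l F :=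
  bv a b * bv (bar b) (bar a) + bv (bar b) (bar a) * bv a b

theorem weyl_sq {A B : CA l F} (hA : A * A = 0) (hB : B * B = 0) (hABA : A * B * A = A)
    (hBAB : B * A * B = B) :
    ((1 - A) * (1 + B) * (1 - A)) * ((1 - A) * (1 + B) * (1 - A)) =
      1 - (A * B + B * A) - (A * B + B * A) := by
  have a1 : ∀ x, A * (A * x) = 0 := fun x => by rw [← mul_assoc, hA, zero_mul]
  have b1 : ∀ x, B * (B * x) = 0 := fun x => by rw [← mul_assoc, hB, zero_mul]
  rw [mul_assoc] at hABA hBAB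
  simp only [mul_sub, sub_mul, mul_add, add_mul, mul_assoc, one_mul, mul_one, hA, hB, hABA, hBAB,
    a1, b1, mul_zero, zero_mul]
  abel

theorem tu_add {a b : I l} (h : ix a ≠ ix b) : (tu a b : CA l F) + tu a (bar b) = 1 := by
  have h' : ix a ≠ ix (bar b) := by simpa using h
  simp only [tu, bv, bar_bar, mul_assoc]
  have s1 : ∀ {c : I l}, ix a ≠ ix c → (ev (bar c) : CA l F) * (ev (bar a) * (ev a * ev c)) =
      ev (bar a) * (ev a * (ev (bar c) * ev c)) := by
    intro c hc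
    rw [ev_comm' (a := bar c) (b := bar a) (by rw [bar_bar]; exact ne_of_ix (by simpa using hc)),
      ev_comm' (a := bar c) (b := a) (by rw [bar_bar]; exact ne_of_ix hc), mul_neg, neg_neg]
  have s2 := s1 h'
  rw [bar_bar] at s2
  rw [s1 h, s2, add_add_add_comm, ← mul_add, ev_bar_mul, ← mul_add, ← mul_add,
    show (ev (bar b) : CA l F) * ev b + ev b * ev (bar b) = 1 by rw [add_comm]; exact ev_bar b,
    mul_one, ev_bar]

theorem tu_mul {a b : I l} (h : ix a ≠ ix b) : (tu a b : CA l F) * tu a (bar b) = 0 := by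
  have z1 : ∀ x, (bv (bar b) (bar a) : CA l F) * (bv a (bar b) * x) = 0 := fun x => by
    simp only [bv, mul_assoc]
    rw [ev_comm' (a := bar b) (b := bar a) (by rw [bar_bar]; exact ne_of_ix (by simpa using h)),
      ev_comm' (a := bar b) (b := a) (by rw [bar_bar]; exact ne_of_ix h), ev_mul_self', mul_zero,
      neg_zero, mul_zero, neg_zero]
  have z2 : ∀ x, (bv a b : CA l F) * (bv b (bar a) * x) = 0 := fun x => by
    simp only [bv, mul_assoc]
    rw [ev_mul_self', mul_zero]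
  have z3 : ∀ x, (bv (bar b) (bar a) : CA l F) * (bv b (bar a) * x) = 0 := fun x => by
    simp only [bv, mul_assoc]
    rw [ev_comm' (a := bar a) (b := b) (by rw [bar_bar]; exact ne_of_ix h.symm), ev_mul_self',
      mul_zero, neg_zero, mul_zero]
  have z4 : ∀ x, (bv a b : CA l F) * (bv a (bar b) * x) = 0 := fun x => by
    simp only [bv, mul_assoc]
    rw [ev_comm' (a := b) (b := a) (ne_of_ix (by simpa using h)), mul_neg, ev_mul_self', neg_zero]
  simp only [tu, bar_bar, add_mul, mul_add, mul_assoc, z1, z2, z3, z4, mul_zero, add_zero]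

theorem neg_one_ne_one_CA (h : (-1 : F) ≠ 1) : (-1 : CA l F) ≠ 1 := by
  have h2 : (2 : F) ≠ 0 := fun e => h (by linear_combination -e)
  let : Invertible (2 : F) := invertibleOfNonzero h2
  intro e
  exact h ((algebraMap F (CA l F)).injective (by rw [map_neg, map_one, e]))

variable [Finite F]

theorem ext_spinProj (h4 : 4 ≤ l) (hexc : l = 4 → Nat.card F ≠ 2) :
    Ext (spinProj (F := F) (show 3 ≤ l by omega)) :=
  ⟨h4, hexc, spinProj_surjective _, fun _ hz g =>
    Subgroup.mem_center_iff.1 (spinProj_central _ hz) g⟩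

variable {hl : 3 ≤ l} (hE : Ext (spinProj (F := F) hl))
include hE

theorem Ext.Z_eq_gen {a c : I l} (h : ix a ≠ ix c) (t : F) :
    hE.Z a c t = DType.gen hl h t := by
  obtain ⟨h1, h2, h3⟩ := hE.mid_spec h
  have e := hE.comm_eq_Z ⟨h1, h2, h3⟩ (x := DType.gen hl h1 t)
    (y := DType.gen hl (a := bar (hE.mid a c)) (b := c) (by simpa using h2) (1 : F))
    ⟨_, rfl⟩ ⟨_, rfl⟩
  rw [gen_comm hl h1 h2 h3, mul_one] at e
  exact e.symm

theorem Ext.snd_Phi {ρ : Equiv.Perm (I l)} (hρ : Compat ρ) (A : SL(l, F)) :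
    Levi ρ A (hE.Phi hρ A).1.2.1 := by
  haveI : Nontrivial (Fin l) := Fin.nontrivial_iff_two_le.2 (by omega)
  induction A using Cfsg.Agent.Linear.transvection_induction with
  | htransvec i j h c =>
    rw [hE.Phi_transvection hρ h, hE.Z_eq_gen (hρ.ix_ne (a := .inl i) (b := .inr j) h)]
    exact levi_transvection hρ h c
  | hmul A B hA hB =>
    rw [map_mul]
    exact hA.mul hB

theorem Ext.snd_psi (p : Par l F) :
    IsMono (hE.psi p).1.2.1 1 fun _ => ((p.1.1 : Fˣ) : F) := by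
  have h1 := Levi.isMono_dg (hd := prod_diagPar ⟨hE.parD p, hE.parD_mem p⟩)
      (hE.snd_Phi compat_one (dgHom l F ⟨hE.parD p, hE.parD_mem p⟩))
  have h2 := (hE.snd_Phi hE.compat_flip (dg (hE.thetaD p.1.2) (hE.prod_thetaD _))).isMono_dg
  intro v x
  have e := (h1.mul h2) v x
  rw [one_mul, Equiv.Perm.one_apply] at e
  refine e.trans ?_
  congr 1
  have hcc : ((p.1.1 : Fˣ) : F)⁻¹ = ((p.1.1 : Fˣ) : F) :=
    inv_eq_of_mul_eq_one_right (by rw [← Units.val_mul, p.2.1, Units.val_one])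
  rcases x with i | i <;> rcases eq_or_ne i hE.o0 with rfl | h0 <;>
    [skip; rcases eq_or_ne i hE.o1 with rfl | h1; skip; rcases eq_or_ne i hE.o1 with rfl | h1] <;>
    simp [show (1 : Equiv.Perm (I l)).symm = 1 from rfl, Ext.parD, Ext.flip, Ext.thetaD,
      Equiv.swap_apply_of_ne_of_ne, hE.o_ne, hE.o_ne.symm,
      hcc, mul_assoc, mul_comm, mul_left_comm, *]

/-- The first component of the torus element at `-1`. -/
theorem Ext.fst_H {a b : I l} (h : ix a ≠ ix b) :
    ((hE.H a b (-1)).1.1 : CA l F) = 1 - tu a b - tu a b := by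
  have h' : ix (bar b) ≠ ix (bar a) := by simpa using h.symm
  rw [Ext.H, Ext.W, hE.Z_eq_gen h, hE.Z_eq_gen h']
  show (((spinX a b (-1) * spinX (bar b) (bar a) (-(-1)⁻¹) * spinX a b (-1)) *
    (spinX a b (-1) * spinX (bar b) (bar a) (-(-1)⁻¹) * spinX a b (-1)) : (CA l F)ˣ) : CA l F) = _
  have hBAB : (bv (bar b) (bar a) : CA l F) * bv a b * bv (bar b) (bar a) = bv (bar b) (bar a) := by
    have := bv_mul_mul (F := F) h'
    rwa [bar_bar, bar_bar] at this
  simp only [Units.val_mul, coe_spinX h, coe_spinX h', inv_neg, inv_one, neg_neg, one_smul,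
    neg_smul, ← sub_eq_add_neg]
  exact weyl_sq (bv_sq h) (bv_sq h') (bv_mul_mul h) hBAB

theorem Ext.psi_neg_one (p : Par l F) (hc : p.1.1 = 1) (hs : p.1.2 = -1) :
    ((hE.psi p).1.1 : CA l F) = -1 := by
  have hne : (-1 : F) ≠ 0 := neg_ne_zero.2 one_ne_zero
  obtain ⟨hd, e1⟩ := hE.H_eq_Phi compat_one hE.o_ne hne
  obtain ⟨hd', e2⟩ := hE.H_eq_Phi hE.compat_flip hE.o_ne hne
  have eP : hE.Phi compat_one (dgHom l F ⟨hE.parD p, hE.parD_mem p⟩) =
      hE.H (.inl hE.o0) (.inr hE.o1) (-1) := by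
    refine ((congrArg (hE.Phi compat_one) (Subtype.ext ?_)).trans e1.symm)
    show Matrix.diagonal _ = Matrix.diagonal _
    congr 1
    funext m
    by_cases h0 : m = hE.o0
    · simp [Ext.parD, hw, h0, hc, hs]
    · by_cases h1 : m = hE.o1
      · simp [Ext.parD, hw, bar, h1, hE.o_ne.symm, hc, hs]
      · simp [Ext.parD, hw, bar, h0, h1, hc]
  have eT : hE.theta p.1.2 = hE.H (.inl hE.o0) (.inl hE.o1) (-1) := by
    have e : hE.flip (.inr hE.o1) = .inl hE.o1 := by simp [Ext.flip]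
    rw [← hE.flip_o0, ← e]
    refine ((congrArg (hE.Phi hE.compat_flip) (Subtype.ext ?_)).trans e2.symm)
    show Matrix.diagonal _ = Matrix.diagonal _
    congr 1
    funext m
    by_cases h0 : m = hE.o0
    · simp [Ext.thetaD, hw, h0, hs, hE.flip_o0]
    · by_cases h1 : m = hE.o1
      · simp [Ext.thetaD, Ext.flip, hw, bar, h1, hE.o_ne, hE.o_ne.symm, hs,
          Equiv.swap_apply_of_ne_of_ne]
      · simp [Ext.thetaD, Ext.flip, hw, bar, h0, h1, Equiv.swap_apply_of_ne_of_ne,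
          hE.o_ne]
  have hpsi : hE.psi p = hE.Phi compat_one (dgHom l F ⟨hE.parD p, hE.parD_mem p⟩) *
      hE.theta p.1.2 := rfl
  rw [hpsi, eP, eT]
  have h01 : ix (Sum.inl hE.o0 : I l) ≠ ix (Sum.inr hE.o1 : I l) := hE.o_ne
  have h01' : ix (Sum.inl hE.o0 : I l) ≠ ix (Sum.inl hE.o1 : I l) := hE.o_ne
  show ((hE.H (.inl hE.o0) (.inr hE.o1) (-1)).1.1 : CA l F) *
    ((hE.H (.inl hE.o0) (.inl hE.o1) (-1)).1.1 : CA l F) = -1
  rw [hE.fst_H h01, hE.fst_H h01']
  have hsum := tu_add (F := F) h01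
  have hmul := tu_mul (F := F) h01
  simp only [show bar (Sum.inr hE.o1 : I l) = .inl hE.o1 from rfl] at hsum hmul
  set U : CA l F := tu (.inl hE.o0) (.inr hE.o1)
  set V : CA l F := tu (.inl hE.o0) (.inl hE.o1)
  calc (1 - U - U) * (1 - V - V) = 1 - (U + V) - (U + V) + (U * V + U * V + (U * V + U * V)) := by
        noncomm_ring
    _ = -1 := by rw [hsum, hmul]; simp

/-- The parameters map injectively to the spin group. -/
theorem Ext.psi_injective : Function.Injective hE.psi := by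
  rw [injective_iff_map_eq_one]
  intro p hp
  have hm := hE.snd_psi p (Pi.single (.inl hE.o0) 1) (.inl hE.o0)
  rw [hp] at hm
  have hc : p.1.1 = 1 := by
    refine Units.ext ?_
    simpa [mat_one] using hm.symm
  have hs : p.1.2 * p.1.2 = 1 := by rw [p.2.2, hc, one_pow]
  have hs' : (p.1.2 : F) = 1 ∨ (p.1.2 : F) = -1 :=
    mul_self_eq_one_iff.1 (by rw [← Units.val_mul, hs, Units.val_one])
  refine Subtype.ext (Prod.ext hc ?_)
  by_contra hne
  have hs1 : (p.1.2 : F) ≠ 1 := fun e => hne (Units.ext e)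
  have hs2 := hs'.resolve_left hs1
  have e := hE.psi_neg_one p hc (Units.ext (by rw [hs2, Units.val_neg, Units.val_one]))
  rw [hp] at e
  exact neg_one_ne_one_CA (hs2 ▸ hs1) e.symm

omit hE in
/-- The Schur multiplier of `PΩ⁺_{2l}(q)` is the parameter group. -/
theorem hasSchurMultiplier_Par (h4 : 4 ≤ l) (hexc : l = 4 → Nat.card F ≠ 2) :
    HasSchurMultiplier (POmega F (Q l F)) (Par l F) := by
  have hl : 3 ≤ l := by omega
  have hE := ext_spinProj (F := F) h4 hexc
  have hker := hE.ker_eq_psi (by rw [commutator_Spin hl]; exact le_top)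
  let e : (spinProj (F := F) hl).ker ≃* Par l F :=
    ((MonoidHom.ofInjective hE.psi_injective).trans (MulEquiv.subgroupCongr hker.symm)).symm
  refine hasSchurMultiplier_of_stem (isStem_spinProj hl) ?_ e
  obtain ⟨W, iW, fW, θ, hθ, ⟨e'⟩⟩ := exists_schurCover (POmega F (Q l F))
  have hE' : Ext θ := ⟨h4, hexc, hθ.1, fun _ hz g => Subgroup.mem_center_iff.1 (hθ.2.1 hz) g⟩
  rw [← Nat.card_congr e'.toEquiv, Nat.card_congr e.toEquiv]
  exact hE'.card_ker_le hθ.2.2

end

section Structure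

variable {F : Type u} [Field F] {l : ℕ}

theorem gcd_four_pow {q l : ℕ} (hl : 2 ≤ l) (hodd : Odd l) (hq : 1 ≤ q) :
    Nat.gcd 4 (q ^ l - 1) = (q - 1).gcd 4 := by
  obtain ⟨k, rfl⟩ := hodd
  rw [Nat.gcd_comm (q - 1), Nat.gcd_rec 4, Nat.gcd_rec 4 (q - 1)]
  have h1 : q ^ (2 * k + 1) % 4 = if q % 2 = 0 then 0 else q % 4 := by
    rw [Nat.pow_mod]
    have h : q % 4 = 0 ∨ q % 4 = 1 ∨ q % 4 = 2 ∨ q % 4 = 3 := by omega
    rcases h with h | h | h | h <;> rw [h]
    · simp [show q % 2 = 0 by omega]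
    · simp [show q % 2 = 1 by omega]
    · obtain ⟨j, rfl⟩ : ∃ j, k = j + 1 := ⟨k - 1, by omega⟩
      rw [if_pos (by omega), show 2 * (j + 1) + 1 = 2 + (2 * j + 1) by ring, pow_add, Nat.mul_mod]
      simp
    · rw [if_neg (by omega), pow_succ, pow_mul, Nat.mul_mod, Nat.pow_mod]
      norm_num
  have h2 : 1 ≤ q ^ (2 * k + 1) := Nat.one_le_pow _ _ hq
  by_cases he : q % 2 = 0
  · rw [if_pos he] at h1
    have h3 : (q ^ (2 * k + 1) - 1) % 4 = 3 := by omega
    have h4 : (q - 1) % 4 = 1 ∨ (q - 1) % 4 = 3 := by omega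
    rw [h3]
    rcases h4 with h4 | h4 <;> rw [h4] <;> decide
  · rw [if_neg he] at h1
    congr 1
    omega

theorem gcd_two_pow {q l : ℕ} (hl : 1 ≤ l) (hq : 1 ≤ q) :
    Nat.gcd 2 (q ^ l - 1) = (q - 1).gcd 2 := by
  rw [Nat.gcd_comm (q - 1), Nat.gcd_rec 2, Nat.gcd_rec 2 (q - 1)]
  have h1 : q ^ l % 2 = q % 2 := by
    rw [Nat.pow_mod]
    rcases Nat.mod_two_eq_zero_or_one q with h | h <;> rw [h]
    · simp [zero_pow (show l ≠ 0 by omega)]
    · simp
  have h2 : 1 ≤ q ^ l := Nat.one_le_pow _ _ hq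
  congr 1
  omega

variable [Finite F]

/-- For odd rank the parameter group is cyclic. -/
theorem par_odd (hodd : Odd l) :
    Nonempty (Multiplicative (ZMod ((Nat.card F - 1).gcd 4)) ≃* Par l F) := by
  obtain ⟨k, rfl⟩ := hodd
  let K := (powMonoidHom 4 : Fˣ →* Fˣ).ker
  have hc : ∀ p : Par (2 * k + 1) F, p.1.2 * p.1.2 = p.1.1 := fun p => by
    rw [p.2.2, pow_succ, pow_mul, pow_two, p.2.1, one_pow, one_mul]
  let e : Par (2 * k + 1) F ≃* K :=
    { toFun := fun p => ⟨p.1.2, MonoidHom.mem_ker.2 (by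
        rw [powMonoidHom_apply, show 4 = 2 * 2 from rfl, pow_mul, pow_two p.1.2, hc, pow_two, p.2.1])⟩
      invFun := fun s => ⟨(s.1 * s.1, s.1), by
        have h : s.1 * s.1 * (s.1 * s.1) = 1 := by
          have := MonoidHom.mem_ker.1 s.2
          rw [powMonoidHom_apply] at this
          rw [← this]; simp [pow_succ, mul_assoc]
        exact ⟨h, by rw [pow_succ, pow_mul, pow_two, h, one_pow, one_mul]⟩⟩
      left_inv := fun p => Subtype.ext (Prod.ext (hc p) rfl)
      right_inv := fun s => rfl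
      map_mul' := fun p r => rfl }
  have hcard : Nat.card K = (Nat.card F - 1).gcd 4 := by
    rw [IsCyclic.card_powMonoidHom_ker, Nat.card_units]
  have m : Multiplicative (ZMod ((Nat.card F - 1).gcd 4)) ≃* K :=
    hcard ▸ zmodCyclicMulEquiv (G := K) inferInstance
  exact ⟨m.trans e.symm⟩

/-- For even rank the parameter group is a product of two cyclic groups. -/
theorem par_even (heven : Even l) :
    Nonempty (Multiplicative (ZMod ((Nat.card F - 1).gcd 2) × ZMod ((Nat.card F - 1).gcd 2)) ≃*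
      Par l F) := by
  obtain ⟨k, rfl⟩ := heven
  let K := (powMonoidHom 2 : Fˣ →* Fˣ).ker
  have hK : ∀ x : Fˣ, x ∈ K ↔ x * x = 1 := fun x => by
    rw [MonoidHom.mem_ker, powMonoidHom_apply, pow_two]
  have hc : ∀ c : Fˣ, c * c = 1 → c ^ (k + k) = 1 := fun c h => by
    rw [← two_mul, pow_mul, pow_two, h, one_pow]
  let e : Par (k + k) F ≃* K × K :=
    { toFun := fun p => (⟨p.1.1, (hK _).2 p.2.1⟩, ⟨p.1.2, (hK _).2 (p.2.2.trans (hc _ p.2.1))⟩)
      invFun := fun s => ⟨(s.1.1, s.2.1), (hK _).1 s.1.2,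
        ((hK _).1 s.2.2).trans (hc _ ((hK _).1 s.1.2)).symm⟩
      left_inv := fun p => rfl
      right_inv := fun s => rfl
      map_mul' := fun p r => rfl }
  have hcard : Nat.card K = (Nat.card F - 1).gcd 2 := by
    rw [IsCyclic.card_powMonoidHom_ker, Nat.card_units]
  have m : Multiplicative (ZMod ((Nat.card F - 1).gcd 2)) ≃* K :=
    hcard ▸ zmodCyclicMulEquiv (G := K) inferInstance
  exact ⟨(MulEquiv.prodMultiplicative _ _).trans ((m.prodCongr m).trans e.symm)⟩

end Structure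

end Cfsg.Agent.DType
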