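import Cfsg.Agent.DType.Weyl

/-!
# Positive and simple roots
-/

set_option autoImplicit false
set_option linter.unusedSectionVars false

namespace Cfsg.Agent.DType

variable {l : ℕ}

/-- The weight of an index. -/
def wt : I l → ℤ := Sum.elim (fun i => (l : ℤ) - (i : ℕ)) (fun i => -((l : ℤ) - (i : ℕ)))

theorem wt_bar (x : I l) : wt (bar x) = -wt x := by rcases x with i | i <;> simp [bar, wt]

/-- Positive roots. -/
def Pos (a b : I l) : Prop := ix a ≠ ix b ∧ 0 < wt a + wt b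

/-- Simple roots. -/
def Simple (a b : I l) : Prop :=
  (∃ i j : Fin l, a = .inl i ∧ b = .inr j ∧ (i : ℕ) + 1 = j) ∨
    (∃ i j : Fin l, a = .inl i ∧ b = .inl j ∧ (i : ℕ) + 2 = l ∧ (j : ℕ) + 1 = l)

theorem wt_sum_ne {a b : I l} (h : ix a ≠ ix b) : wt a + wt b ≠ 0 := by
  intro e
  apply h
  rcases a with i | i <;> rcases b with j | j <;> simp [wt, ix] at e ⊢ <;>
    exact Fin.ext (by omega)

theorem Simple.pos {a b : I l} (h : Simple a b) : Pos a b := by
  rcases h with ⟨i, j, rfl, rfl, h⟩ | ⟨i, j, rfl, rfl, h1, h2⟩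
  · exact ⟨fun e => by simp [ix] at e; subst e; omega, by simp [wt]; omega⟩
  · exact ⟨fun e => by simp [ix] at e; subst e; omega, by simp [wt]; omega⟩

/-- The root is not `{a, b}`. -/
def Other (a b c d : I l) : Prop := ¬(c = a ∧ d = b) ∧ ¬(c = b ∧ d = a)

/-- The reflection of a simple root permutes the other positive roots. -/
theorem Simple.perm {a b : I l} (h : Simple a b) {c d : I l} (hp : Pos c d) (ho : Other a b c d) :
    0 < wt (sw a b c) + wt (sw a b d) := by
  obtain ⟨hcd, hpos⟩ := hp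
  obtain ⟨o1, o2⟩ := ho
  rcases h with ⟨i, j, rfl, rfl, h⟩ | ⟨i, j, rfl, rfl, h, h'⟩ <;>
    rcases c with c | c <;> rcases d with d | d <;>
    simp [sw, Equiv.swap_apply_def, bar, wt, ix, Fin.ext_iff] at * <;>
    (repeat' split) <;> simp [Fin.ext_iff] at * <;> omega

theorem Pos.descend {c d : I l} (h : Pos c d) :
    Simple c d ∨ Simple d c ∨ ∃ a b, Simple a b ∧
      0 < wt (sw a b c) + wt (sw a b d) ∧ wt (sw a b c) + wt (sw a b d) < wt c + wt d := by
  -- the two generic cases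
  have mixed : ∀ i j : Fin l, (i : ℕ) < j → Simple (Sum.inl i) (Sum.inr j) ∨
      ∃ a b, Simple a b ∧
        0 < wt (sw a b (.inl i)) + wt (sw a b (.inr j)) ∧
        wt (sw a b (.inl i)) + wt (sw a b (.inr j)) < wt (Sum.inl i : I l) + wt (Sum.inr j) := by
    intro i j hij
    by_cases h1 : (i : ℕ) + 1 = j
    · exact Or.inl (Or.inl ⟨i, j, rfl, rfl, h1⟩)
    refine Or.inr ⟨.inl ⟨j - 1, by omega⟩, .inr j,
      Or.inl ⟨⟨j - 1, by omega⟩, j, rfl, rfl, (show (j : ℕ) - 1 + 1 = j by omega)⟩, ?_⟩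
    simp only [sw, Equiv.Perm.mul_apply, Equiv.swap_apply_def, bar, Sum.swap_inl, Sum.swap_inr,
      Sum.inl.injEq, Sum.inr.injEq, reduceCtorEq, Fin.ext_iff, if_false]
    (repeat' split) <;> simp [wt, Fin.ext_iff] at * <;> omega
  have both : ∀ i j : Fin l, (i : ℕ) < j → Simple (Sum.inl i) (Sum.inl j) ∨
      ∃ a b, Simple a b ∧
        0 < wt (sw a b (.inl i)) + wt (sw a b (.inl j)) ∧
        wt (sw a b (.inl i)) + wt (sw a b (.inl j)) < wt (Sum.inl i : I l) + wt (Sum.inl j) := by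
    intro i j hij
    by_cases h1 : (j : ℕ) + 1 = l
    · by_cases h2 : (i : ℕ) + 2 = l
      · exact Or.inl (Or.inr ⟨i, j, rfl, rfl, h2, h1⟩)
      refine Or.inr ⟨.inl i, .inr ⟨i + 1, by omega⟩,
        Or.inl ⟨i, ⟨i + 1, by omega⟩, rfl, rfl, rfl⟩, ?_⟩
      simp only [sw, Equiv.Perm.mul_apply, Equiv.swap_apply_def, bar, Sum.swap_inl, Sum.swap_inr,
        Sum.inl.injEq, Sum.inr.injEq, reduceCtorEq, Fin.ext_iff, if_false]
      (repeat' split) <;> simp [wt, Fin.ext_iff] at * <;> omega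
    · refine Or.inr ⟨.inl j, .inr ⟨j + 1, by omega⟩,
        Or.inl ⟨j, ⟨j + 1, by omega⟩, rfl, rfl, rfl⟩, ?_⟩
      simp only [sw, Equiv.Perm.mul_apply, Equiv.swap_apply_def, bar, Sum.swap_inl, Sum.swap_inr,
        Sum.inl.injEq, Sum.inr.injEq, reduceCtorEq, Fin.ext_iff, if_false]
      (repeat' split) <;> simp [wt, Fin.ext_iff] at * <;> omega
  obtain ⟨hcd, hpos⟩ := h
  rcases c with i | i <;> rcases d with j | j
  · rcases Nat.lt_or_ge (i : ℕ) j with hij | hij
    · exact (both i j hij).imp_right Or.inr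
    · have hne : (j : ℕ) ≠ i := fun e => hcd (Fin.ext e.symm)
      rcases both j i (by omega) with h | ⟨a, b, h1, h2, h3⟩
      · exact Or.inr (Or.inl h)
      · exact Or.inr (Or.inr ⟨a, b, h1, by omega, by omega⟩)
  · exact (mixed i j (by simp [wt] at hpos; omega)).imp_right Or.inr
  · rcases mixed j i (by simp [wt] at hpos; omega) with h | ⟨a, b, h1, h2, h3⟩
    · exact Or.inr (Or.inl h)
    · exact Or.inr (Or.inr ⟨a, b, h1, by omega, by omega⟩)
  · exfalso
    simp [wt] at hpos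
    omega

end Cfsg.Agent.DType
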