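import Cfsg.Agent.DType.Weyl

/-!
# A recognition of the group of even signed permutations

Involutions attached to roots which conjugate each other like reflections generate a group in which
only the identity acts trivially.
-/

set_option autoImplicit false
set_option linter.unusedSectionVars false

namespace Cfsg.Agent.DType

variable {l : ℕ}

theorem sw_bar {a b : I l} (h : ix a ≠ ix b) (x : I l) : sw a b (bar x) = bar (sw a b x) := by
  have d1 : a ≠ b := ne_of_ix h
  have d2 : a ≠ bar b := ne_of_ix (by simpa using h)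
  have d3 : bar a ≠ b := ne_of_ix (by simpa using h)
  have d4 : bar a ≠ bar b := ne_of_ix (by simpa using h)
  by_cases h1 : x = a
  · subst h1; simp [sw, Equiv.swap_apply_of_ne_of_ne, d1, d1.symm, d2, d2.symm, d3, d3.symm, d4, d4.symm, bar_ne, ne_bar]
  by_cases h2 : x = b
  · subst h2; simp [sw, Equiv.swap_apply_of_ne_of_ne, d1, d1.symm, d2, d2.symm, d3, d3.symm, d4, d4.symm, bar_ne, ne_bar]
  by_cases h3 : x = bar a
  · subst h3; simp [sw, Equiv.swap_apply_of_ne_of_ne, d1, d1.symm, d2, d2.symm, d3, d3.symm, d4, d4.symm, bar_ne, ne_bar]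
  by_cases h4 : x = bar b
  · subst h4; simp [sw, Equiv.swap_apply_of_ne_of_ne, d1, d1.symm, d2, d2.symm, d3, d3.symm, d4, d4.symm, bar_ne, ne_bar]
  have e1 : bar x ≠ a := fun e => h3 (by rw [← e, bar_bar])
  have e2 : bar x ≠ b := fun e => h4 (by rw [← e, bar_bar])
  have e3 : bar x ≠ bar a := fun e => h1 (bar_inj e)
  have e4 : bar x ≠ bar b := fun e => h2 (bar_inj e)
  simp [sw, Equiv.swap_apply_of_ne_of_ne, *]

theorem sw_ix_ne {a b : I l} (h : ix a ≠ ix b) {c d : I l} (hcd : ix c ≠ ix d) :
    ix (sw a b c) ≠ ix (sw a b d) := by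
  intro e
  rcases eq_or_eq_bar e with e | e
  · exact ne_of_ix hcd ((sw a b).injective e)
  · rw [← sw_bar h] at e
    exact hcd (by rw [(sw a b).injective e, ix_bar])

theorem sw_swap {a b : I l} (h : ix a ≠ ix b) : sw b a = sw a b := by
  rw [sw, sw, Equiv.swap_comm b (bar a), Equiv.swap_comm (bar b) a]
  exact (Equiv.Perm.Disjoint.commute (Equiv.Perm.disjoint_swap_swap (by
    have d1 : a ≠ b := ne_of_ix h
    have d2 : a ≠ bar b := ne_of_ix (by simpa using h)
    have d3 : bar a ≠ b := ne_of_ix (by simpa using h)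
    have d4 : bar a ≠ bar b := ne_of_ix (by simpa using h)
    simp [d1, d2.symm, d3, d4.symm, ne_bar, bar_ne, d1.symm, d2, d3.symm, d4]))).eq

theorem sw_conj {a b c d : I l} (h : ix a ≠ ix b) :
    sw a b * sw c d * sw a b = sw (sw a b c) (sw a b d) := by
  have hinv : (sw a b)⁻¹ = sw a b := inv_eq_of_mul_eq_one_right (sw_mul_self h)
  set σ := sw a b
  calc σ * sw c d * σ = (σ * Equiv.swap c (bar d) * σ⁻¹) * (σ * Equiv.swap (bar c) d * σ⁻¹) := by
        rw [show sw c d = Equiv.swap c (bar d) * Equiv.swap (bar c) d from rfl]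
        conv_lhs => enter [2]; rw [← hinv]
        group
    _ = _ := by
        rw [← Equiv.swap_apply_apply, ← Equiv.swap_apply_apply, sw_bar h, sw_bar h]
        rfl

theorem sw_apply {a b : I l} (h : ix a ≠ ix b) : sw a b a = bar b ∧ sw a b b = bar a ∧
    ∀ x, ix x ≠ ix a → ix x ≠ ix b → sw a b x = x := by
  have d1 : a ≠ b := ne_of_ix h
  have d2 : a ≠ bar a := ne_bar a
  have d3 : b ≠ bar b := ne_bar b
  refine ⟨?_, ?_, fun x h1 h2 => ?_⟩
  · simp [sw, Equiv.swap_apply_of_ne_of_ne, d1, d2]
  · simp [sw, Equiv.swap_apply_of_ne_of_ne, bar_ne, ne_of_ix (show ix (bar a) ≠ ix (bar b) by simpa using h)]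
  · simp [sw, Equiv.swap_apply_of_ne_of_ne, ne_of_ix h1, ne_of_ix h2,
      ne_of_ix (show ix x ≠ ix (bar a) by simpa using h1),
      ne_of_ix (show ix x ≠ ix (bar b) by simpa using h2)]

universe v

/-- Reflection-like elements indexed by roots. -/
structure RSys {K : Type v} [Group K] (r : I l → I l → K) : Prop where
  swap : ∀ a b, ix a ≠ ix b → r b a = r a b
  bar' : ∀ a b, ix a ≠ ix b → r (bar b) (bar a) = r a b
  sq : ∀ a b, ix a ≠ ix b → r a b * r a b = 1
  conj : ∀ a b c d, ix a ≠ ix b → ix c ≠ ix d →
    r a b * r c d * r a b = r (sw a b c) (sw a b d)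

variable {K : Type v} [Group K] {r : I l → I l → K}

/-- The pair of an element and its permutation. -/
def pr (r : I l → I l → K) (a b : I l) : K × Equiv.Perm (I l) := (r a b, sw a b)

/-- The pairs on indices at least `k`. -/
def gens (r : I l → I l → K) (k : ℕ) : Subgroup (K × Equiv.Perm (I l)) :=
  Subgroup.closure
    {p | ∃ a b, ix a ≠ ix b ∧ k ≤ (ix a : ℕ) ∧ k ≤ (ix b : ℕ) ∧ p = pr r a b}

variable (hR : RSys r)
include hR

theorem RSys.pr_sq {a b : I l} (h : ix a ≠ ix b) : pr r a b * pr r a b = 1 :=
  Prod.ext (hR.sq a b h) (sw_mul_self h)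

theorem RSys.pr_swap {a b : I l} (h : ix a ≠ ix b) : pr r b a = pr r a b :=
  Prod.ext (hR.swap a b h) (sw_swap h)

theorem RSys.pr_conj {a b c d : I l} (h : ix a ≠ ix b) (hcd : ix c ≠ ix d) :
    pr r a b * pr r c d * pr r a b = pr r (sw a b c) (sw a b d) :=
  Prod.ext (hR.conj a b c d h hcd) (sw_conj h)

theorem RSys.pr_bar {a b : I l} (h : ix a ≠ ix b) : pr r (bar b) (bar a) = pr r a b := by
  refine Prod.ext (hR.bar' a b h) ?_
  show sw (bar b) (bar a) = sw a b
  rw [sw, sw, bar_bar, bar_bar, Equiv.swap_comm (bar b) a, Equiv.swap_comm b (bar a)]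

theorem RSys.eq_one : ∀ n k, k + n = l → ∀ p ∈ gens r k, p.2 = 1 → p.1 = 1 := by
  intro n
  induction n with
  | zero =>
    intro k hk p hp _
    have : gens r k ≤ ⊥ := (Subgroup.closure_le _).2 (by
      rintro _ ⟨a, b, -, ha, -, rfl⟩
      exact absurd (ix a).isLt (by omega))
    rw [Subgroup.mem_bot.1 (this hp)]
    rfl
  | succ n ih =>
    intro k hk p hp hp2
    let kk : Fin l := ⟨k, by omega⟩
    set o : I l := .inl kk with ho
    have hixo : ix o = kk := rfl
    by_cases hk1 : k + 1 = l
    · have : gens r k ≤ ⊥ := (Subgroup.closure_le _).2 (by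
        rintro _ ⟨a, b, hab, ha, hb, rfl⟩
        exact absurd (Fin.ext (by have := (ix a).isLt; have := (ix b).isLt; omega)) hab)
      rw [Subgroup.mem_bot.1 (this hp)]
      rfl
    set S := gens r (k + 1)
    have hmemS : ∀ {a b : I l}, ix a ≠ ix b → k + 1 ≤ (ix a : ℕ) → k + 1 ≤ (ix b : ℕ) →
        pr r a b ∈ S := fun h1 h2 h3 => Subgroup.subset_closure ⟨_, _, h1, h2, h3, rfl⟩
    -- the coset representatives
    let T : I l → K × Equiv.Perm (I l) := fun c => pr r o c * pr r o (bar c)
    let u : I l → K × Equiv.Perm (I l) := fun c => pr r o (bar c)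
    let j : I l := .inl ⟨k + 1, by omega⟩
    have gt : ∀ {c : I l}, k + 1 ≤ (ix c : ℕ) → ix o ≠ ix c := fun {c} h e => by
      rw [← e, hixo] at h; exact absurd h (by simp [kk])
    have hu_o : ∀ {c : I l}, ix o ≠ ix c → (u c).2 o = c := fun {c} h => by
      show sw o (bar c) o = c
      rw [(sw_apply (by simpa using h)).1, bar_bar]
    have hT_o : ∀ {c : I l}, ix o ≠ ix c → (T c).2 o = bar o := fun {c} h => by
      show sw o c (sw o (bar c) o) = bar o
      rw [(sw_apply (by simpa using h)).1, bar_bar, (sw_apply h).2.1]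
    -- `u c` and `u (bar c)` commute
    have hTT : ∀ {c : I l}, ix o ≠ ix c → T (bar c) = T c ∧ T c * T c = 1 := by
      intro c h
      have h' : ix o ≠ ix (bar c) := by simpa using h
      have e : pr r o c * pr r o (bar c) * pr r o c = pr r o (bar c) := by
        rw [hR.pr_conj h h', sw_bar h, (sw_apply h).1, (sw_apply h).2.1, bar_bar, hR.pr_swap h']
      have e' : pr r o c * pr r o (bar c) = pr r o (bar c) * pr r o c := by
        conv_rhs => rw [← e]
        rw [mul_assoc, hR.pr_sq h, mul_one]
      refine ⟨?_, ?_⟩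
      · show pr r o (bar c) * pr r o (bar (bar c)) = _
        rw [bar_bar, ← e']
      · show pr r o c * pr r o (bar c) * (pr r o c * pr r o (bar c)) = 1
        conv_lhs => enter [2]; rw [e']
        rw [mul_assoc, ← mul_assoc (pr r o (bar c)), hR.pr_sq h', one_mul, hR.pr_sq h]
    have hE : ∀ {c d : I l}, ix o ≠ ix c → ix o ≠ ix d → ix c ≠ ix d →
        T d * T c = pr r c d * pr r c (bar d) := by
      intro c d hc hd hcd
      have hc' : ix o ≠ ix (bar c) := by simpa using hc
      have hd' : ix o ≠ ix (bar d) := by simpa using hd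
      have a1 : u c * pr r o d * u c = pr r c d := by
        rw [hR.pr_conj hc' hd, (sw_apply hc').1, (sw_apply hc').2.2 d hd.symm (by simpa using hcd.symm),
          bar_bar]
      have a2 : u c * pr r o (bar d) * u c = pr r c (bar d) := by
        rw [hR.pr_conj hc' hd', (sw_apply hc').1,
          (sw_apply hc').2.2 (bar d) (by simpa using hd.symm) (by simpa using hcd.symm), bar_bar]
      have a3 : pr r o (bar d) * u c * pr r o (bar d) = pr r d (bar c) := by
        rw [hR.pr_conj hd' hc', (sw_apply hd').1,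
          (sw_apply hd').2.2 (bar c) (by simpa using hc.symm) (by simpa using hcd), bar_bar]
      have a4 : pr r o d * pr r d (bar c) * pr r o d = pr r o c := by
        have h4 : ix d ≠ ix (bar c) := by simpa using hcd.symm
        rw [hR.pr_conj hd h4, (sw_apply hd).2.1,
          (sw_apply hd).2.2 (bar c) (by simpa using hc.symm) (by simpa using hcd), hR.pr_bar hc.symm,
          hR.pr_swap hc]
      have a5 : T d * u c * (T d)⁻¹ = pr r o c := by
        show pr r o d * pr r o (bar d) * u c * (pr r o d * pr r o (bar d))⁻¹ = _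
        rw [_root_.mul_inv_rev, inv_eq_of_mul_eq_one_right (hR.pr_sq hd'),
          inv_eq_of_mul_eq_one_right (hR.pr_sq hd), show pr r o d * pr r o (bar d) * u c *
            (pr r o (bar d) * pr r o d) = pr r o d * (pr r o (bar d) * u c * pr r o (bar d)) * pr r o d
            by group, a3, a4]
      rw [← a1, ← a2]
      calc T d * T c = T d * pr r o c * u c := (mul_assoc _ _ _).symm
        _ = T d * (T d * u c * (T d)⁻¹) * u c := by rw [a5]
        _ = (T d * T d) * u c * (T d)⁻¹ * u c := by group
        _ = u c * T d * u c := by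
            rw [(hTT hd).2, one_mul, inv_eq_of_mul_eq_one_right (hTT hd).2]
        _ = (u c * pr r o d * u c) * (u c * pr r o (bar d) * u c) := by
            rw [show u c * pr r o d * u c * (u c * pr r o (bar d) * u c) =
              u c * pr r o d * (u c * u c) * pr r o (bar d) * u c by group, hR.pr_sq hc', mul_one]
            show u c * (pr r o d * pr r o (bar d)) * u c = _
            group
    have hTj : ∀ {d : I l}, k + 1 ≤ (ix d : ℕ) → ∃ s ∈ S, T d = T j * s := by
      intro d hd
      have hj : k + 1 ≤ (ix j : ℕ) := le_rfl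
      by_cases he : ix d = ix j
      · refine ⟨1, one_mem _, ?_⟩
        rcases eq_or_eq_bar he with rfl | rfl
        · rw [mul_one]
        · rw [mul_one, (hTT (gt hj)).1]
      · refine ⟨T j * T d, ?_, ?_⟩
        · rw [hE (gt hd) (gt hj) he]
          exact mul_mem (hmemS he hd hj) (hmemS (by simpa using he) hd (by simpa using hj))
        · rw [← mul_assoc, (hTT (gt hj)).2, one_mul]
    -- the cosets cover
    let Good : K × Equiv.Perm (I l) → Prop := fun p => ∃ s ∈ S,
      p = s ∨ p = T j * s ∨ ∃ c : I l, k + 1 ≤ (ix c : ℕ) ∧ p = u c * s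
    have hcl : ∀ a b, ix a ≠ ix b → k ≤ (ix a : ℕ) → k ≤ (ix b : ℕ) → ∀ q, Good q →
        Good (pr r a b * q) := by
      intro a b hab ha hb q ⟨s, hs, hq⟩
      by_cases hab1 : k + 1 ≤ (ix a : ℕ) ∧ k + 1 ≤ (ix b : ℕ)
      · obtain ⟨ha1, hb1⟩ := hab1
        have hg := hmemS hab ha1 hb1
        have fixo : sw a b o = o := (sw_apply hab).2.2 o (gt ha1) (gt hb1)
        have hconj : ∀ {c : I l}, k + 1 ≤ (ix c : ℕ) →
            pr r a b * u c = u (sw a b c) * pr r a b ∧ k + 1 ≤ (ix (sw a b c) : ℕ) := by
          intro c hc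
          have e := hR.pr_conj hab (show ix o ≠ ix (bar c) by simpa using gt hc)
          rw [fixo, sw_bar hab] at e
          refine ⟨?_, ?_⟩
          · show pr r a b * u c = pr r o (bar (sw a b c)) * pr r a b
            rw [← e, mul_assoc _ (pr r a b) (pr r a b), hR.pr_sq hab, mul_one]
          · have h1 := sw_ix_ne hab (gt hc)
            rw [fixo] at h1
            by_contra hlt
            rcases eq_or_ne (sw a b c) c with e1 | e1
            · rw [e1] at hlt; exact hlt hc
            · by_cases hca : ix c = ix a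
              · rcases eq_or_eq_bar hca with rfl | rfl
                · rw [(sw_apply hab).1, ix_bar] at hlt; exact hlt hb1
                · rw [sw_bar hab, (sw_apply hab).1, ix_bar, ix_bar] at hlt; exact hlt hb1
              · by_cases hcb : ix c = ix b
                · rcases eq_or_eq_bar hcb with rfl | rfl
                  · rw [(sw_apply hab).2.1, ix_bar] at hlt; exact hlt ha1
                  · rw [sw_bar hab, (sw_apply hab).2.1, ix_bar, ix_bar] at hlt; exact hlt ha1
                · exact e1 ((sw_apply hab).2.2 c hca hcb)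
        rcases hq with rfl | rfl | ⟨c, hc, rfl⟩
        · exact ⟨_, mul_mem hg hs, Or.inl rfl⟩
        · have hj : k + 1 ≤ (ix j : ℕ) := le_rfl
          have e1 := hconj hj
          have e2 := hconj (c := bar j) (by rw [ix_bar]; exact hj)
          rw [sw_bar hab] at e2
          obtain ⟨s', hs', he⟩ := hTj (d := sw a b j) e1.2
          refine ⟨s' * (pr r a b * s), mul_mem hs' (mul_mem hg hs), Or.inr (Or.inl ?_)⟩
          rw [← mul_assoc (T j), ← he, ← mul_assoc]
          have hTu : ∀ c, T c = u (bar c) * u c := fun c => by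
            show pr r o c * pr r o (bar c) = pr r o (bar (bar c)) * pr r o (bar c)
            rw [bar_bar]
          rw [hTu j, hTu (sw a b j), ← mul_assoc (pr r a b), e2.1, mul_assoc, mul_assoc, ← mul_assoc
            (pr r a b) (u j), e1.1]
          group
        · obtain ⟨e1, e2⟩ := hconj hc
          exact ⟨_, mul_mem hg hs, Or.inr (Or.inr ⟨_, e2, by rw [← mul_assoc, e1, mul_assoc]⟩)⟩
      · obtain ⟨d, hd, hgd⟩ : ∃ d : I l, k + 1 ≤ (ix d : ℕ) ∧ pr r a b = u d := by
          have hne : (ix a : ℕ) ≠ (ix b : ℕ) := fun e => hab (Fin.ext e)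
          rcases not_and_or.1 hab1 with h | h
          · have hix : ix a = ix o := Fin.ext (by simp [hixo, kk]; omega)
            rcases eq_or_eq_bar hix with rfl | rfl
            · exact ⟨bar b, by rw [ix_bar]; simp [hixo, kk] at hne; omega, by simp [u]⟩
            · refine ⟨b, by simp [hixo, kk] at hne; omega, ?_⟩
              rw [← hR.pr_bar hab, bar_bar, hR.pr_swap (by simpa using hab)]
          · have hix : ix b = ix o := Fin.ext (by simp [hixo, kk]; omega)
            rw [← hR.pr_swap hab]
            rcases eq_or_eq_bar hix with rfl | rfl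
            · exact ⟨bar a, by rw [ix_bar]; simp [hixo, kk] at hne; omega, by simp [u]⟩
            · refine ⟨a, by simp [hixo, kk] at hne; omega, ?_⟩
              rw [← hR.pr_bar hab.symm, bar_bar, hR.pr_swap (by simpa using hab.symm)]
        rw [hgd]
        have hdo := gt hd
        have hd' : ix o ≠ ix (bar d) := by simpa using hdo
        rcases hq with rfl | rfl | ⟨c, hc, rfl⟩
        · exact ⟨_, hs, Or.inr (Or.inr ⟨d, hd, rfl⟩)⟩
        · obtain ⟨s', hs', he⟩ := hTj hd
          have hj : k + 1 ≤ (ix j : ℕ) := le_rfl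
          refine ⟨(pr r o d * pr r o (bar d) * T j) * s, mul_mem ?_ hs,
            Or.inr (Or.inr ⟨bar d, by simpa using hd, ?_⟩)⟩
          · rw [show pr r o d * pr r o (bar d) = T d from rfl]
            by_cases he' : ix d = ix j
            · rcases eq_or_eq_bar he' with rfl | rfl
              · rw [(hTT (gt hj)).2]; exact one_mem _
              · rw [(hTT (gt hj)).1, (hTT (gt hj)).2]; exact one_mem _
            · rw [hE (gt hj) hdo (Ne.symm he')]
              exact mul_mem (hmemS (Ne.symm he') hj hd)
                (hmemS (by simpa using Ne.symm he') hj (by simpa using hd))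
          · show u d * (T j * s) = pr r o (bar (bar d)) * (pr r o d * pr r o (bar d) * T j * s)
            rw [bar_bar, show pr r o d * (pr r o d * pr r o (bar d) * T j * s) =
              (pr r o d * pr r o d) * (pr r o (bar d) * (T j * s)) by group, hR.pr_sq hdo, one_mul]
        · have hco := gt hc
          have hc' : ix o ≠ ix (bar c) := by simpa using hco
          by_cases hcd : ix c = ix d
          · rcases eq_or_eq_bar hcd with rfl | rfl
            · exact ⟨s, hs, Or.inl (by rw [← mul_assoc, hR.pr_sq hc', one_mul])⟩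
            · obtain ⟨s', hs', he⟩ := hTj hd
              refine ⟨s' * s, mul_mem hs' hs, Or.inr (Or.inl ?_)⟩
              rw [← mul_assoc, ← mul_assoc, ← he, ← (hTT hdo).1]
          · refine ⟨(u c * u d * u c) * s, mul_mem ?_ hs, Or.inr (Or.inr ⟨c, hc, ?_⟩)⟩
            · rw [hR.pr_conj hc' hd', (sw_apply hc').1, bar_bar,
                (sw_apply hc').2.2 (bar d) (by simpa using hdo.symm) (by simpa using Ne.symm hcd)]
              exact hmemS (by simpa using hcd) hc (by simpa using hd)
            · rw [show u c * (u c * u d * u c * s) = (u c * u c) * u d * u c * s by group,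
                hR.pr_sq hc', one_mul, mul_assoc]
    have hall : Good p := by
      refine Subgroup.closure_induction_left (p := fun q _ => Good q) ⟨1, one_mem _, Or.inl rfl⟩
        ?_ ?_ hp
      · rintro _ ⟨a, b, h, ha, hb, rfl⟩ q _ hq
        exact hcl a b h ha hb q hq
      · rintro _ ⟨a, b, h, ha, hb, rfl⟩ q _ hq
        rw [inv_eq_of_mul_eq_one_right (hR.pr_sq h)]
        exact hcl a b h ha hb q hq
    have hfix : ∀ s ∈ S, s.2 o = o := by
      intro s hs
      induction hs using Subgroup.closure_induction with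
      | mem x hx =>
        obtain ⟨a, b, h, ha, hb, rfl⟩ := hx
        exact (sw_apply h).2.2 o (gt ha) (gt hb)
      | one => rfl
      | mul x y _ _ ihx ihy => rw [Prod.snd_mul, Equiv.Perm.mul_apply, ihy, ihx]
      | inv x _ ih => rw [Prod.snd_inv, Equiv.Perm.inv_eq_iff_eq, ih]
    obtain ⟨s, hs, rfl | rfl | ⟨c, hc, rfl⟩⟩ := hall
    · exact ih (k + 1) (by omega) _ hs hp2
    · exfalso
      have e := congrArg (fun σ : Equiv.Perm (I l) => σ o) hp2
      simp only [Prod.snd_mul, Equiv.Perm.mul_apply, hfix s hs, Equiv.Perm.one_apply,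
        hT_o (gt (c := j) le_rfl)] at e
      exact bar_ne o e
    · exfalso
      have e := congrArg (fun σ : Equiv.Perm (I l) => σ o) hp2
      simp only [Prod.snd_mul, Equiv.Perm.mul_apply, hfix s hs, Equiv.Perm.one_apply,
        hu_o (gt hc)] at e
      exact gt hc (congrArg ix e.symm)

end Cfsg.Agent.DType
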