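import Cfsg.Agent.DType.Torus
import Cfsg.Agent.DType.Signed

/-!
# Weyl elements modulo the torus
-/

set_option autoImplicit false
set_option linter.unusedSectionVars false

namespace Cfsg.Agent.DType

open scoped commutatorElement Matrix

universe u v

variable {F : Type u} [Field F] [Finite F] {l : ℕ} {E : Type v} [Group E]
  {π : E →* POmega F (Q l F)}

/-- Two isometries under the same element differ by a sign. -/
theorem Lies.scalar (hl : 3 ≤ l) {g : E} {γ δ : isometryGroup F (Q l F)} (h : Lies π g γ)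
    (k : Lies π g δ) : ∃ c : F, c * c = 1 ∧ ∀ v, mat δ *ᵥ v = c • (mat γ *ᵥ v) := by
  obtain ⟨h1, e1⟩ := h
  obtain ⟨h2, e2⟩ := k
  have e : proj (⟨γ, h1⟩ : Omega F (Q l F)) = proj ⟨δ, h2⟩ := e1.symm.trans e2
  rw [QuotientGroup.mk'_apply, QuotientGroup.mk'_apply, QuotientGroup.eq] at e
  obtain ⟨c, hc, hm⟩ := (mem_center_iff hl _).1 e
  refine ⟨c, hc, fun v => ?_⟩
  have hm' : mat (γ⁻¹ * δ) = c • (1 : Matrix (I l) (I l) F) := hm
  calc mat δ *ᵥ v = mat (γ * (γ⁻¹ * δ)) *ᵥ v := by rw [mul_inv_cancel_left]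
    _ = _ := by
      rw [mat_mul, hm', ← Matrix.mulVec_mulVec, Matrix.smul_mulVec, Matrix.one_mulVec,
        Matrix.mulVec_smul]

theorem IsMono.unique {γ δ : isometryGroup F (Q l F)} {σ τ : Equiv.Perm (I l)} {w z : I l → F}
    (h : IsMono γ σ w) (k : IsMono δ τ z) {c : F} (hc : ∀ v, mat δ *ᵥ v = c • (mat γ *ᵥ v)) :
    σ = τ := by
  ext x
  by_contra hne
  have e := congrFun (hc (Pi.single x 1)) (τ x)
  rw [k.mulVec_single, Pi.smul_apply, h.mulVec_single, Pi.single_eq_same,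
    Pi.single_eq_of_ne (Ne.symm hne), smul_zero, mul_one] at e
  exact k.ne_zero x e

variable (hE : Ext π)
include hE

/-- The subgroup generated by the Weyl elements. -/
def Ext.WN : Subgroup E :=
  Subgroup.closure {g | ∃ a b t, ix a ≠ ix b ∧ t ≠ 0 ∧ g = hE.W a b t}

theorem Ext.W_mem_WN {a b : I l} (h : ix a ≠ ix b) {t : F} (ht : t ≠ 0) :
    hE.W a b t ∈ hE.WN := Subgroup.subset_closure ⟨a, b, t, h, ht, rfl⟩

/-- The subgroup generated by the torus elements. -/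
def Ext.HS : Subgroup E :=
  Subgroup.closure {g | ∃ a b t, ix a ≠ ix b ∧ t ≠ 0 ∧ g = hE.H a b t}

theorem Ext.H_mem_HS {a b : I l} (h : ix a ≠ ix b) {t : F} (ht : t ≠ 0) :
    hE.H a b t ∈ hE.HS := Subgroup.subset_closure ⟨a, b, t, h, ht, rfl⟩

theorem Ext.HS_le_torus : hE.HS ≤ hE.torus.range :=
  (Subgroup.closure_le _).2 (by rintro _ ⟨a, b, t, h, ht, rfl⟩; exact hE.H_mem h ht)

theorem Ext.WW_mem {a b : I l} (h : ix a ≠ ix b) {p q : F} (hp : p ≠ 0) (hq : q ≠ 0) :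
    hE.W a b p * hE.W a b (-q) ∈ hE.HS := by
  have e : hE.W a b p * hE.W a b (-q) = hE.H a b p * (hE.H a b q)⁻¹ := by
    rw [Ext.H, Ext.H, _root_.mul_inv_rev, hE.W_inv h q]; group
  rw [e]
  exact mul_mem (hE.H_mem_HS h hp) (inv_mem (hE.H_mem_HS h hq))

theorem Ext.HS_conj {a b : I l} (h : ix a ≠ ix b) {t : F} (ht : t ≠ 0) {x : E} (hx : x ∈ hE.HS) :
    hE.W a b t * x * (hE.W a b t)⁻¹ ∈ hE.HS := by
  induction hx using Subgroup.closure_induction with
  | mem y hy =>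
    obtain ⟨c, d, s, hcd, hs, rfl⟩ := hy
    have hm := isMono_Ww h ht
    rw [Ext.H, show ∀ g p q : E, g * (p * q) * g⁻¹ = (g * p * g⁻¹) * (g * q * g⁻¹) from
      fun g p q => by group, hE.W_conj hm (hE.W_lies h t) hcd, hE.W_conj hm (hE.W_lies h t) hcd,
      mul_neg, mul_one]
    have h0 : ww a b t c * ww a b t d ≠ 0 := mul_ne_zero (hm.ne_zero c) (hm.ne_zero d)
    exact hE.WW_mem (hm.conj hcd s).1 (mul_ne_zero h0 hs) h0
  | one => rw [mul_one, mul_inv_cancel]; exact one_mem _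
  | mul y z _ _ ihy ihz =>
    rw [show ∀ g p q : E, g * (p * q) * g⁻¹ = (g * p * g⁻¹) * (g * q * g⁻¹) from
      fun g p q => by group]
    exact mul_mem ihy ihz
  | inv y _ ih =>
    rw [show ∀ g p : E, g * p⁻¹ * g⁻¹ = (g * p * g⁻¹)⁻¹ from fun g p => by group]
    exact inv_mem ih

theorem Ext.normal_HS : (hE.HS.subgroupOf hE.WN).Normal := by
  refine ⟨fun x hx g => ?_⟩
  rw [Subgroup.mem_subgroupOf] at hx ⊢
  suffices H : ∀ g ∈ hE.WN, ∀ x ∈ hE.HS, g * x * g⁻¹ ∈ hE.HS from H g.1 g.2 _ hx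
  intro g hg
  refine Subgroup.closure_induction_left (p := fun g _ => ∀ x ∈ hE.HS, g * x * g⁻¹ ∈ hE.HS)
    (fun x hx => by simpa using hx) ?_ ?_ hg
  · rintro _ ⟨a, b, t, h, ht, rfl⟩ y _ ih x hx
    rw [show ∀ p : E, p * y * x * (p * y)⁻¹ = p * (y * x * y⁻¹) * p⁻¹ from fun p => by group]
    exact hE.HS_conj h ht (ih x hx)
  · rintro _ ⟨a, b, t, h, ht, rfl⟩ y _ ih x hx
    rw [show ∀ p : E, p * y * x * (p * y)⁻¹ = p * (y * x * y⁻¹) * p⁻¹ from fun p => by group,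
      hE.W_inv h]
    exact hE.HS_conj h (neg_ne_zero.2 ht) (ih x hx)

/-- A product of Weyl elements with trivial permutation lies in the torus. -/
theorem Ext.mem_torus_of_mono {g : E} (hg : g ∈ hE.WN) {γ : isometryGroup F (Q l F)} {w : I l → F}
    (hγ : IsMono γ 1 w) (hl : Lies π g γ) : g ∈ hE.torus.range := by
  classical
  haveI := hE.normal_HS
  let mk := QuotientGroup.mk' (hE.HS.subgroupOf hE.WN)
  let r : I l → I l → ↥hE.WN ⧸ hE.HS.subgroupOf hE.WN := fun a b =>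
    if h : ix a ≠ ix b then mk ⟨hE.W a b 1, hE.W_mem_WN h one_ne_zero⟩ else 1
  have eqv : ∀ {x y : ↥hE.WN}, (x : E) * (y : E)⁻¹ ∈ hE.HS → mk x = mk y := by
    intro x y hxy
    rw [← mul_inv_eq_one, ← map_inv, ← map_mul, QuotientGroup.mk'_apply, QuotientGroup.eq_one_iff,
      Subgroup.mem_subgroupOf]
    exact hxy
  have hW : ∀ {a b : I l} (h : ix a ≠ ix b) {t : F} (ht : t ≠ 0),
      mk ⟨hE.W a b t, hE.W_mem_WN h ht⟩ = r a b := by
    intro a b h t ht
    simp only [r, dif_pos h]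
    refine eqv ?_
    show hE.W a b t * (hE.W a b 1)⁻¹ ∈ hE.HS
    rw [hE.W_inv h]
    exact hE.H_mem_HS h ht
  have h1 : (-1 : F) ≠ 0 := neg_ne_zero.2 one_ne_zero
  have hR : RSys r := by
    refine ⟨fun a b h => ?_, fun a b h => ?_, fun a b h => ?_, fun a b c d h hcd => ?_⟩
    · rw [← hW h.symm one_ne_zero, ← hW h h1]
      congr 1
      exact Subtype.ext (hE.W_swap h 1)
    · have h' : ix (bar b) ≠ ix (bar a) := by simpa using h.symm
      rw [← hW h one_ne_zero, ← hW h' h1]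
      congr 1
      refine Subtype.ext ?_
      show hE.W (bar b) (bar a) (-1) = hE.W a b 1
      rw [hE.W_bar h one_ne_zero, inv_one]
    · simp only [r, dif_pos h]
      rw [← map_mul, QuotientGroup.mk'_apply, QuotientGroup.eq_one_iff, Subgroup.mem_subgroupOf]
      show hE.W a b 1 * hE.W a b 1 ∈ hE.HS
      have e := hE.WW_mem h one_ne_zero h1
      rwa [neg_neg] at e
    · have hm := isMono_Ww h (one_ne_zero (α := F))
      have hs := (hm.conj hcd 1).1
      have h0 : ww a b (1 : F) c * ww a b 1 d * 1 ≠ 0 :=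
        mul_ne_zero (mul_ne_zero (hm.ne_zero c) (hm.ne_zero d)) one_ne_zero
      conv_lhs => arg 2; rw [← hW h h1]
      rw [← hW hcd one_ne_zero, ← hW h one_ne_zero, ← hW hs h0, ← map_mul, ← map_mul]
      congr 1
      refine Subtype.ext ?_
      show hE.W a b 1 * hE.W c d 1 * hE.W a b (-1) = _
      rw [← hE.W_inv h, hE.W_conj hm (hE.W_lies h 1) hcd]
  have key : ∀ x (hx : x ∈ hE.WN), ∃ (σ : Equiv.Perm (I l)) (z : I l → F)
      (δ : isometryGroup F (Q l F)), IsMono δ σ z ∧ Lies π x δ ∧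
        (mk ⟨x, hx⟩, σ) ∈ gens r 0 := by
    intro x hx
    refine Subgroup.closure_induction_left (p := fun x hx => ∃ (σ : Equiv.Perm (I l)) (z : I l → F)
      (δ : isometryGroup F (Q l F)), IsMono δ σ z ∧ Lies π x δ ∧
        (mk ⟨x, hx⟩, σ) ∈ gens r 0) ⟨1, _, 1, IsMono.one, Lies.one, ?_⟩ ?_ ?_ hx
    · have e1 : mk (⟨1, one_mem _⟩ : ↥hE.WN) = 1 := map_one mk
      rw [e1]
      exact one_mem _
    · rintro _ ⟨a, b, t, h, ht, rfl⟩ y hy ⟨σ, z, δ, h1, h2, h3⟩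
      refine ⟨sw a b * σ, _, Ww a b t * δ, (isMono_Ww h ht).mul h1, (hE.W_lies h t).mul h2, ?_⟩
      have hm := mul_mem (Subgroup.subset_closure ⟨a, b, h, Nat.zero_le _, Nat.zero_le _, rfl⟩ :
        pr r a b ∈ gens r 0) h3
      rw [pr, Prod.mk_mul_mk, ← hW h ht, ← map_mul] at hm
      exact hm
    · rintro _ ⟨a, b, t, h, ht, rfl⟩ y hy ⟨σ, z, δ, h1, h2, h3⟩
      have ht' := neg_ne_zero.2 ht
      refine ⟨sw a b * σ, _, Ww a b (-t) * δ, (isMono_Ww h ht').mul h1, ?_, ?_⟩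
      · rw [hE.W_inv h]; exact (hE.W_lies h (-t)).mul h2
      · have hm := mul_mem (Subgroup.subset_closure ⟨a, b, h, Nat.zero_le _, Nat.zero_le _, rfl⟩ :
          pr r a b ∈ gens r 0) h3
        rw [pr, Prod.mk_mul_mk, ← hW h ht', ← map_mul] at hm
        have e : (⟨(hE.W a b t)⁻¹ * y, mul_mem (inv_mem (hE.W_mem_WN h ht)) hy⟩ : ↥hE.WN) =
            ⟨hE.W a b (-t), hE.W_mem_WN h ht'⟩ * ⟨y, hy⟩ :=
          Subtype.ext (congrArg (· * y) (hE.W_inv h t))
        rw [e]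
        exact hm
  obtain ⟨σ, z, δ, h1, h2, h3⟩ := key g hg
  obtain ⟨c, -, hc⟩ := hl.scalar hE.three_le h2
  obtain rfl : (1 : Equiv.Perm (I l)) = σ := hγ.unique h1 hc
  have e := hR.eq_one l 0 (zero_add l) _ h3 rfl
  rw [QuotientGroup.mk'_apply, QuotientGroup.eq_one_iff, Subgroup.mem_subgroupOf] at e
  exact hE.HS_le_torus e

end Cfsg.Agent.DType
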