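import Cfsg.Agent.DType.Bound
import Cfsg.Agent.CentralExt.Basic

/-!
# The spin cover of `PΩ⁺`

The group generated by the pairs of a unit `1 + t e_a e_b` of the Clifford algebra and the root
element `X a b t`. Its kernel over `PΩ` is as large as the bound of `Cfsg.Agent.DType.Bound`.
-/

set_option autoImplicit false
set_option linter.unusedSectionVars false

namespace Cfsg.Agent.DType

open Cfsg.Agent.Classical
open scoped commutatorElement Matrix MatrixGroups

universe u

noncomputable section

variable {F : Type u} [Field F] {l : ℕ}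

/-- The Clifford algebra of the form. -/
abbrev CA (l : ℕ) (F : Type u) [Field F] : Type u := CliffordAlgebra (plusQF l F)

/-- The image of a basis vector. -/
def ev (a : I l) : CA l F := CliffordAlgebra.ι _ (Pi.single a 1)

theorem ι_single (a : I l) (c : F) : CliffordAlgebra.ι (plusQF l F) (Pi.single a c) = c • ev a := by
  rw [ev, ← map_smul, ← Pi.single_smul, smul_eq_mul, mul_one]

theorem ev_mul_self (a : I l) : (ev a : CA l F) * ev a = 0 := by
  rw [ev, CliffordAlgebra.ι_sq_scalar, plusQF_apply, show quadFormPlus l F _ = 0 from Q_single a 1,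
    map_zero]

theorem polar_single (a : I l) (v : I l → F) :
    QuadraticMap.polar (plusQF l F) (Pi.single a 1) v = v (bar a) := by
  rw [QuadraticMap.polar, plusQF_apply, plusQF_apply, plusQF_apply, add_comm]
  show Q l F (v + Pi.single a 1) - Q l F (Pi.single a 1) - Q l F v = v (bar a)
  rw [Q_add_single, Q_single]
  ring

theorem ev_ι (a : I l) (v : I l → F) : (ev a : CA l F) * CliffordAlgebra.ι _ v =
    algebraMap F _ (v (bar a)) - CliffordAlgebra.ι _ v * ev a := by
  rw [ev, CliffordAlgebra.ι_mul_ι_comm, polar_single]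

theorem ev_comm {a b : I l} (h : b ≠ bar a) : (ev a : CA l F) * ev b = -(ev b * ev a) := by
  have e := ev_ι (F := F) a (Pi.single b 1)
  rw [Pi.single_eq_of_ne h.symm, map_zero, zero_sub] at e
  exact e

theorem ev_bar (a : I l) : (ev a : CA l F) * ev (bar a) + ev (bar a) * ev a = 1 := by
  have e := ev_ι (F := F) a (Pi.single (bar a) 1)
  rw [Pi.single_eq_same, map_one] at e
  exact eq_sub_iff_add_eq.1 e

theorem ev_bar_mul (a : I l) (x : CA l F) :
    ev a * (ev (bar a) * x) + ev (bar a) * (ev a * x) = x := by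
  rw [← mul_assoc, ← mul_assoc, ← add_mul, ev_bar, one_mul]

theorem ev_mul_self' (a : I l) (x : CA l F) : ev a * (ev a * x) = 0 := by
  rw [← mul_assoc, ev_mul_self, zero_mul]

theorem ev_comm' {a b : I l} (h : b ≠ bar a) (x : CA l F) :
    ev a * (ev b * x) = -(ev b * (ev a * x)) := by
  rw [← mul_assoc, ev_comm h, neg_mul, mul_assoc]

/-- The bivector of a root. -/
def bv (a b : I l) : CA l F := ev a * ev b

theorem ne_bar_of {a b : I l} (h : ix a ≠ ix b) : b ≠ bar a :=
  ne_of_ix (by simpa using h.symm)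

theorem bv_sq {a b : I l} (h : ix a ≠ ix b) : (bv a b : CA l F) * bv a b = 0 := by
  rw [bv, mul_assoc, ev_comm' (ne_bar_of h.symm), ev_mul_self, mul_zero, neg_zero, mul_zero]

/-- The unit of a root. -/
def spinX (a b : I l) (t : F) : (CA l F)ˣ :=
  if h : ix a ≠ ix b then
    ⟨1 + t • bv a b, 1 + (-t) • bv a b,
      by simp [mul_add, add_mul, bv_sq h],
      by simp [mul_add, add_mul, bv_sq h]⟩
  else 1

theorem coe_spinX {a b : I l} (h : ix a ≠ ix b) (t : F) :
    (spinX a b t : CA l F) = 1 + t • bv a b := by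
  rw [spinX, dif_pos h]

/-- The Clifford unit `x` induces the isometry `g`. -/
def Induces (x : (CA l F)ˣ) (g : isometryGroup F (Q l F)) : Prop :=
  ∀ v : I l → F, (x : CA l F) * CliffordAlgebra.ι (plusQF l F) v =
    CliffordAlgebra.ι (plusQF l F) (mat g *ᵥ v) * (x : CA l F)

theorem induces_spinX {a b : I l} (h : ix a ≠ ix b) (t : F) : Induces (spinX a b t) (X a b t) := by
  intro v
  rw [coe_spinX h, mat_X h, rmat_mulVec, map_add, map_sub, ι_single, ι_single]
  have hb : bv a b * CliffordAlgebra.ι (plusQF l F) v =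
      v (bar b) • ev a - (v (bar a) • ev b - CliffordAlgebra.ι (plusQF l F) v * bv a b) := by
    rw [bv, mul_assoc, ev_ι b, mul_sub, ← mul_assoc, ev_ι a, sub_mul, ← mul_assoc,
      Algebra.algebraMap_eq_smul_one, Algebra.algebraMap_eq_smul_one, mul_smul_comm, mul_one,
      smul_mul_assoc, one_mul]
  have h1 : (ev a : CA l F) * bv a b = 0 := ev_mul_self' a _
  have h2 : (ev b : CA l F) * bv a b = 0 := by
    rw [bv, ev_comm' (ne_bar_of h.symm), ev_mul_self, mul_zero, neg_zero]
  simp only [add_mul, mul_add, sub_mul, one_mul, mul_one, smul_mul_assoc, mul_smul_comm, hb, h1, h2,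
    smul_sub, smul_smul, smul_zero, sub_zero, add_zero, mul_comm t]
  abel

theorem Induces.mul {x y : (CA l F)ˣ} {g k : isometryGroup F (Q l F)} (h1 : Induces x g)
    (h2 : Induces y k) : Induces (x * y) (g * k) := by
  intro v
  rw [Units.val_mul, mul_assoc, h2 v, ← mul_assoc, h1, mul_assoc, mat_mul, ← Matrix.mulVec_mulVec]

theorem Induces.inv {x : (CA l F)ˣ} {g : isometryGroup F (Q l F)} (h : Induces x g) :
    Induces x⁻¹ g⁻¹ := by
  intro v
  have e := h (mat g⁻¹ *ᵥ v)
  rw [mat_mulVec_inv] at e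
  calc (↑x⁻¹ : CA l F) * CliffordAlgebra.ι (plusQF l F) v
      = ↑x⁻¹ * (CliffordAlgebra.ι (plusQF l F) v * (x : CA l F)) * ↑x⁻¹ := by
        rw [mul_assoc, mul_assoc, Units.mul_inv, mul_one]
    _ = _ := by rw [← e, ← mul_assoc, Units.inv_mul, one_mul]

/-- The pairs of units and isometries. -/
def pairGen (hl : 3 ≤ l) (a b : I l) (t : F) : (CA l F)ˣ × Omega F (Q l F) :=
  (spinX a b t, Y hl a b t)

/-- The spin group, as pairs. -/
def Spin (hl : 3 ≤ l) : Subgroup ((CA l F)ˣ × Omega F (Q l F)) :=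
  Subgroup.closure {g | ∃ a b t, ix a ≠ ix b ∧ g = pairGen hl a b t}

variable (hl : 3 ≤ l)

theorem pairGen_mem {a b : I l} (h : ix a ≠ ix b) (t : F) : pairGen hl a b t ∈ Spin (F := F) hl :=
  Subgroup.subset_closure ⟨a, b, t, h, rfl⟩

theorem Spin.induces {g : (CA l F)ˣ × Omega F (Q l F)} (hg : g ∈ Spin hl) :
    Induces g.1 g.2.1 := by
  induction hg using Subgroup.closure_induction with
  | mem x hx => obtain ⟨a, b, t, h, rfl⟩ := hx; exact induces_spinX h t
  | one => intro v; simp [mat_one]
  | mul x y _ _ hx hy => exact hx.mul hy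
  | inv x _ hx => exact hx.inv

/-- The generator in the spin group. -/
def gen {a b : I l} (h : ix a ≠ ix b) (t : F) : Spin (F := F) hl :=
  ⟨pairGen hl a b t, pairGen_mem hl h t⟩

/-- The projection of the spin group to `PΩ`. -/
def spinProj : Spin (F := F) hl →* POmega F (Q l F) :=
  (proj.comp (MonoidHom.snd _ _)).comp (Spin hl).subtype

theorem spinX_comm {a m b : I l} (h1 : ix a ≠ ix m) (h2 : ix m ≠ ix b) (h3 : ix a ≠ ix b)
    (t u : F) : ⁅spinX a m t, spinX (bar m) b u⁆ = spinX a b (t * u) := by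
  rw [commutatorElement_def, mul_inv_eq_iff_eq_mul, mul_inv_eq_iff_eq_mul]
  have h2' : ix (bar m) ≠ ix b := by simpa using h2
  refine Units.ext ?_
  simp only [Units.val_mul, coe_spinX h1, coe_spinX h2', coe_spinX h3]
  have hna : bar m ≠ bar a := ne_of_ix (by simpa using h1.symm)
  have hnb : b ≠ bar a := ne_bar_of h3
  have hnm : b ≠ bar m := ne_of_ix h2'.symm
  have e1 : (bv a m : CA l F) * bv (bar m) b = bv (bar m) b * bv a m + bv a b := by
    have s1 : (bv (bar m) b : CA l F) * bv a m = -(ev a * (ev (bar m) * (ev m * ev b))) := by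
      rw [bv, bv, mul_assoc, ev_comm' (ne_bar_of h3.symm), mul_neg,
        ev_comm' (show a ≠ bar (bar m) by rw [bar_bar]; exact ne_of_ix h1), neg_neg,
        ev_comm (show m ≠ bar b from ne_of_ix (by simpa using h2)), mul_neg, mul_neg]
    rw [s1, bv, bv, mul_assoc, neg_add_eq_sub, eq_sub_iff_add_eq, ← mul_add, ev_bar_mul, bv]
  have e2 : (bv a b : CA l F) * bv (bar m) b = 0 := by
    rw [bv, bv, mul_assoc, ev_comm' (show bar m ≠ bar b from ne_of_ix (by simpa using h2)),
      ev_mul_self, mul_zero, neg_zero, mul_zero]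
  have e3 : (bv a b : CA l F) * bv a m = 0 := by
    rw [bv, bv, mul_assoc, ev_comm' (ne_bar_of h3.symm), mul_neg, ev_mul_self', neg_zero]
  simp only [mul_add, add_mul, one_mul, mul_one, smul_mul_assoc, mul_smul_comm, e1, e2, e3,
    smul_zero, add_zero, smul_add, smul_smul, mul_comm u t]
  abel

theorem gen_comm {a m b : I l} (h1 : ix a ≠ ix m) (h2 : ix m ≠ ix b) (h3 : ix a ≠ ix b)
    (t u : F) :
    ⁅gen hl h1 t, gen hl (a := bar m) (show ix (bar m) ≠ ix b by simpa using h2) u⁆ =
      gen hl h3 (t * u) := by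
  refine Subtype.ext (Prod.ext (spinX_comm h1 h2 h3 t u) (Subtype.ext ?_))
  exact X_commutator h1 h2 h3 t u

theorem spinProj_surjective : Function.Surjective (spinProj (F := F) hl) := by
  rw [← MonoidHom.range_eq_top, eq_top_iff]
  intro g _
  obtain ⟨ω, rfl⟩ := QuotientGroup.mk'_surjective _ g
  have hmem : ω ∈ Subgroup.closure
      {g : Omega F (Q l F) | ∃ a b t, ix a ≠ ix b ∧ g = Y hl a b t} := by
    rw [closure_Y hl]; exact Subgroup.mem_top _
  induction hmem using Subgroup.closure_induction with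
  | mem x hx => obtain ⟨a, b, t, h, rfl⟩ := hx; exact ⟨gen hl h t, rfl⟩
  | one => exact ⟨1, rfl⟩
  | mul x y _ _ ihx ihy =>
    rw [map_mul]; exact mul_mem (ihx (Subgroup.mem_top _)) (ihy (Subgroup.mem_top _))
  | inv x _ ihx => rw [map_inv]; exact inv_mem (ihx (Subgroup.mem_top _))

theorem commutator_Spin : commutator (Spin (F := F) hl) = ⊤ := by
  rw [eq_top_iff]
  intro g _
  obtain ⟨g, hg⟩ := g
  have key : ∀ g (hg : g ∈ Spin (F := F) hl), (⟨g, hg⟩ : Spin hl) ∈ commutator (Spin (F := F) hl) := by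
    intro g hg
    induction hg using Subgroup.closure_induction with
    | mem x hx =>
      obtain ⟨a, b, t, h, rfl⟩ := hx
      obtain ⟨m, m1, m2⟩ := exists_ix_ne hl (ix a) (ix b)
      have e := gen_comm hl m1.symm m2 h t 1
      rw [mul_one] at e
      show gen hl h t ∈ _
      rw [← e, _root_.commutator_def]
      exact Subgroup.commutator_mem_commutator (Subgroup.mem_top _) (Subgroup.mem_top _)
    | one => exact one_mem (commutator (Spin (F := F) hl))
    | mul x y hx hy ihx ihy => exact mul_mem ihx ihy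
    | inv x hx ihx => exact inv_mem ihx
  exact key g hg

theorem spinProj_central : (spinProj (F := F) hl).ker ≤ Subgroup.center (Spin (F := F) hl) := by
  rintro ⟨⟨x, ω⟩, hx⟩ hker
  have hω : ω ∈ Subgroup.center (Omega F (Q l F)) := (QuotientGroup.eq_one_iff _).1 hker
  obtain ⟨c, hc, hmat⟩ := (mem_center_iff hl ω).1 hω
  have hi : Induces x ω.1 := Spin.induces hl hx
  have hι : ∀ v, (x : CA l F) * CliffordAlgebra.ι (plusQF l F) v =
      c • (CliffordAlgebra.ι (plusQF l F) v * (x : CA l F)) := fun v => by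
    rw [hi v, hmat, Matrix.smul_mulVec, Matrix.one_mulVec, map_smul, smul_mul_assoc]
  have hbv : ∀ a b, Commute (x : CA l F) (bv a b) := fun a b => by
    rw [commute_iff_eq, bv, ev, ev, ← mul_assoc, hι, smul_mul_assoc, mul_assoc _ (x : CA l F), hι,
      mul_smul_comm, smul_smul, hc, one_smul, mul_assoc]
  rw [Subgroup.mem_center_iff]
  rintro ⟨⟨y, ν⟩, hy⟩
  refine Subtype.ext (Prod.ext ?_ (Subgroup.mem_center_iff.1 hω ν))
  show y * x = x * y
  have key : ∀ g ∈ Spin (F := F) hl, Commute x g.1 := by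
    intro g hg
    induction hg using Subgroup.closure_induction with
    | mem z hz =>
      obtain ⟨a, b, t, h, rfl⟩ := hz
      refine Units.ext ?_
      show (x : CA l F) * (spinX a b t : (CA l F)ˣ) = (spinX a b t : (CA l F)ˣ) * (x : CA l F)
      rw [coe_spinX h, mul_add, add_mul, mul_one, one_mul, mul_smul_comm, smul_mul_assoc,
        (hbv a b).eq]
    | one => exact Commute.one_right x
    | mul p r _ _ hp hr => exact hp.mul_right hr
    | inv p _ hp => exact hp.inv_right
  exact (key _ hy).eq.symm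

theorem isStem_spinProj : IsStemExtension (spinProj (F := F) hl) :=
  ⟨spinProj_surjective hl, spinProj_central hl, by rw [commutator_Spin hl]; exact le_top⟩

end

end Cfsg.Agent.DType
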