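import Cfsg.Agent.DType.Lift

/-!
# Levi subgroups and tori in a central extension of `PΩ⁺`
-/

set_option autoImplicit false
set_option linter.unusedSectionVars false

namespace Cfsg.Agent.DType

open Cfsg.Agent.CentralExt Cfsg.Agent.CentralExt.TypeA
open scoped commutatorElement MatrixGroups Matrix

universe u v

variable {F : Type u} [Field F] [Finite F] {l : ℕ} {E : Type v} [Group E]
  {π : E →* POmega F (Q l F)}

/-- A relabelling of the indices compatible with opposition. -/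
def Compat (ρ : Equiv.Perm (I l)) : Prop := ∀ x, ρ (bar x) = bar (ρ x)

theorem compat_one : Compat (1 : Equiv.Perm (I l)) := fun _ => rfl

theorem Compat.ix_ne {ρ : Equiv.Perm (I l)} (h : Compat ρ) {a b : I l} (hab : ix a ≠ ix b) :
    ix (ρ a) ≠ ix (ρ b) := by
  intro e
  rcases eq_or_eq_bar e with e | e
  · exact ne_of_ix hab (ρ.injective e)
  · rw [← h b] at e
    exact hab (by rw [ρ.injective e, ix_bar])

/-- `γ` acts on the relabelled halves by `A` and its inverse transpose. -/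
def Levi (ρ : Equiv.Perm (I l)) (A : SL(l, F)) (γ : isometryGroup F (Q l F)) : Prop :=
  (∀ v i, (mat γ *ᵥ v) (ρ (.inl i)) = ((A : Matrix (Fin l) (Fin l) F) *ᵥ fun j => v (ρ (.inl j))) i) ∧
    ∀ v i, (mat γ *ᵥ v) (ρ (.inr i)) =
      (((A⁻¹ : SL(l, F)) : Matrix (Fin l) (Fin l) F).transpose *ᵥ fun j => v (ρ (.inr j))) i

theorem Levi.mul {ρ : Equiv.Perm (I l)} {A B : SL(l, F)} {γ δ : isometryGroup F (Q l F)}
    (h : Levi ρ A γ) (k : Levi ρ B δ) : Levi ρ (A * B) (γ * δ) := by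
  constructor
  · intro v i
    rw [mat_mul, ← Matrix.mulVec_mulVec, h.1, Matrix.SpecialLinearGroup.coe_mul,
      ← Matrix.mulVec_mulVec]
    congr 1
    exact funext fun j => k.1 v j
  · intro v i
    rw [mat_mul, ← Matrix.mulVec_mulVec, h.2, _root_.mul_inv_rev, Matrix.SpecialLinearGroup.coe_mul,
      Matrix.transpose_mul, ← Matrix.mulVec_mulVec]
    congr 1
    exact funext fun j => k.2 v j

theorem Levi.unique {ρ : Equiv.Perm (I l)} {A : SL(l, F)} {γ δ : isometryGroup F (Q l F)}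
    (h : Levi ρ A γ) (k : Levi ρ A δ) : γ = δ := by
  refine ext_mulVec fun v => funext fun x => ?_
  obtain ⟨z, rfl⟩ := ρ.surjective x
  rcases z with i | i
  · rw [h.1, k.1]
  · rw [h.2, k.2]

theorem levi_transvection {ρ : Equiv.Perm (I l)} (hρ : Compat ρ) {i j : Fin l} (hij : i ≠ j) (t : F) :
    Levi ρ (Matrix.SpecialLinearGroup.transvection hij t) (X (ρ (.inl i)) (ρ (.inr j)) t) := by
  have hab : ix (ρ (.inl i)) ≠ ix (ρ (.inr j)) := hρ.ix_ne hij
  have b1 : bar (ρ (.inr j)) = ρ (.inl j) := by rw [← hρ]; rfl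
  have b2 : bar (ρ (.inl i)) = ρ (.inr i) := by rw [← hρ]; rfl
  have hinv : (Matrix.SpecialLinearGroup.transvection hij t)⁻¹ =
      Matrix.SpecialLinearGroup.transvection hij (-t) :=
    inv_eq_of_mul_eq_one_right (Subtype.ext (by
      rw [Matrix.SpecialLinearGroup.coe_mul]
      exact (Matrix.transvection_mul_transvection_same i j hij t (-t)).trans (by simp)))
  constructor
  · intro v k
    rw [mat_X hab, rmat_mulVec, b1, b2]
    change _ = (Matrix.transvection i j t *ᵥ fun j => v (ρ (.inl j))) k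
    rw [Cfsg.Agent.Spec.StPres.transvection_mulVec]
    simp [Pi.single_apply]
  · intro v k
    rw [mat_X hab, rmat_mulVec, b1, b2, hinv]
    change _ = ((Matrix.transvection i j (-t)).transpose *ᵥ fun j => v (ρ (.inr j))) k
    rw [Matrix.transvection, Matrix.transpose_add, Matrix.transpose_one, Matrix.transpose_single,
      show (1 + Matrix.single j i (-t) : Matrix (Fin l) (Fin l) F) = Matrix.transvection j i (-t)
        from rfl, Cfsg.Agent.Spec.StPres.transvection_mulVec]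
    simp [Pi.single_apply]
    split_ifs <;> simp

theorem dg_inv_coe {d : Fin l → F} (hd : ∏ m, d m = 1) :
    (((dg d hd)⁻¹ : SL(l, F)) : Matrix (Fin l) (Fin l) F) = Matrix.diagonal fun m => (d m)⁻¹ := by
  have hd' : ∏ m, (d m)⁻¹ = 1 := by rw [Finset.prod_inv_distrib, hd, inv_one]
  have : (dg d hd)⁻¹ = dg (fun m => (d m)⁻¹) hd' := inv_eq_of_mul_eq_one_right (Subtype.ext (by
    rw [Matrix.SpecialLinearGroup.coe_mul]
    simp [dg, Matrix.diagonal_mul_diagonal, mul_inv_cancel₀ (dg_ne_zero hd _)]))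
  rw [this]
  rfl

theorem Levi.isMono_dg {ρ : Equiv.Perm (I l)} {d : Fin l → F} {hd : ∏ m, d m = 1}
    {γ : isometryGroup F (Q l F)} (h : Levi ρ (dg d hd) γ) :
    IsMono γ 1 fun x => Sum.elim d (fun m => (d m)⁻¹) (ρ.symm x) := by
  intro v x
  obtain ⟨z, rfl⟩ := ρ.surjective x
  simp only [Equiv.Perm.one_apply, Equiv.symm_apply_apply]
  rcases z with i | i
  · rw [h.1, show ((dg d hd : SL(l, F)) : Matrix (Fin l) (Fin l) F) = Matrix.diagonal d from rfl,
      Matrix.mulVec_diagonal]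
    rfl
  · rw [h.2, dg_inv_coe, Matrix.diagonal_transpose, Matrix.mulVec_diagonal]
    rfl

/-- A Levi element acting diagonally is diagonal. -/
theorem Levi.diag_of_mono {ρ : Equiv.Perm (I l)} {A : SL(l, F)} {γ : isometryGroup F (Q l F)}
    (h : Levi ρ A γ) {w : I l → F} (hw : IsMono γ 1 w) :
    ∃ hd : ∏ m, w (ρ (.inl m)) = 1, A = dg (fun m => w (ρ (.inl m))) hd := by
  have hA : (A : Matrix (Fin l) (Fin l) F) = Matrix.diagonal fun m => w (ρ (.inl m)) := by
    refine Matrix.ext_iff_mulVec.2 fun u => funext fun i => ?_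
    let v : I l → F := fun x => Sum.elim u 0 (ρ.symm x)
    have e := h.1 v i
    have hv : (fun j => v (ρ (.inl j))) = u := funext fun j => by simp [v]
    have h2 := hw v (ρ (.inl i))
    rw [Equiv.Perm.one_apply] at h2
    rw [hv, h2] at e
    rw [← e, Matrix.mulVec_diagonal]
    simp [v]
  have hd : ∏ m, w (ρ (.inl m)) = 1 := by
    rw [← Matrix.det_diagonal, ← hA]; exact A.2
  exact ⟨hd, Subtype.ext hA⟩

/-- The diagonal parameters of the Levi torus. -/
def diagPar (l : ℕ) (F : Type u) [Field F] : Subgroup (Fin l → Fˣ) :=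
  (MonoidHom.mk' (fun u : Fin l → Fˣ => ∏ m, u m) fun _ _ => Finset.prod_mul_distrib).ker

omit [Finite F] in
theorem prod_diagPar (d : diagPar l F) : ∏ m, ((d.1 m : Fˣ) : F) = 1 := by
  have h : ∏ m, d.1 m = (1 : Fˣ) := d.2
  rw [← Units.coe_prod]
  exact congrArg Units.val h

/-- The diagonal matrices. -/
def dgHom (l : ℕ) (F : Type u) [Field F] : diagPar l F →* SL(l, F) :=
  MonoidHom.mk' (fun d => dg (fun m => (d.1 m : F)) (prod_diagPar d)) fun d e => Subtype.ext (by
    rw [Matrix.SpecialLinearGroup.coe_mul]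
    exact (Matrix.diagonal_mul_diagonal _ _).symm)

section

variable (hE : Ext π)
include hE

/-- The Levi subgroup of a section. -/
theorem Ext.exists_levi_hom {ρ : Equiv.Perm (I l)} (hρ : Compat ρ) :
    ∃ Φ : SL(l, F) →* E,
      (∀ i j (h : i ≠ j) t, Φ (Matrix.SpecialLinearGroup.transvection h t) =
        hE.Z (ρ (.inl i)) (ρ (.inr j)) t) ∧
      ∀ A, ∃ γ, Lies π (Φ A) γ ∧ Levi ρ A γ := by
  have b : ∀ j, bar (ρ (.inr j)) = ρ (.inl j) := fun j => by rw [← hρ]; rfl
  have b' : ∀ j, bar (ρ (.inl j)) = ρ (.inr j) := fun j => by rw [← hρ]; rfl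
  have hx : ∀ {i j : Fin l}, i ≠ j → ix (ρ (.inl i)) ≠ ix (ρ (.inr j)) := fun h => hρ.ix_ne h
  have S : Cfsg.Agent.Spec.StPres.Sys F l fun i j t => hE.Z (ρ (.inl i)) (ρ (.inr j)) t := by
    refine ⟨fun i j h t u => (hE.Z_add (hx h) t u).symm, ?_, ?_⟩
    · intro i j k m hij hkm him hjk t u
      refine (hE.rc (hx hij) (hx hkm) ?_ ?_ ?_ ?_ (hE.Z_spec (hx hij) t) (hE.Z_spec (hx hkm) u)).eq
      · rw [b']; exact ρ.injective.ne (by simp)
      · rw [b]; exact ρ.injective.ne (by simpa using hjk.symm)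
      · rw [b']; exact ρ.injective.ne (by simpa using him.symm)
      · rw [b]; exact ρ.injective.ne (by simp)
    · intro i j k hij hjk hik t u
      have e := hE.Z_comm (a := ρ (.inl i)) (b := ρ (.inr j)) (c := ρ (.inr k))
        ⟨hx hij, hρ.ix_ne (a := .inr j) (b := .inr k) hjk, hx hik⟩ t u
      rw [b] at e
      rw [← e, commutatorElement_def]; group
  obtain ⟨Φ, hΦ⟩ := Cfsg.Agent.Spec.StPres.exists_hom hE.three_le S
  refine ⟨Φ, hΦ, fun A => ?_⟩
  haveI : Nontrivial (Fin l) := Fin.nontrivial_iff_two_le.2 (by have := hE.four_le; omega)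
  induction A using Cfsg.Agent.Linear.transvection_induction with
  | htransvec i j h c => exact ⟨_, hΦ i j h c ▸ hE.Z_spec (hx h) c, levi_transvection hρ h c⟩
  | hmul A B hA hB =>
    obtain ⟨γ, g1, g2⟩ := hA
    obtain ⟨δ, k1, k2⟩ := hB
    exact ⟨γ * δ, map_mul Φ A B ▸ g1.mul k1, g2.mul k2⟩

/-- The Levi subgroup homomorphism. -/
noncomputable def Ext.Phi {ρ : Equiv.Perm (I l)} (hρ : Compat ρ) : SL(l, F) →* E :=
  (hE.exists_levi_hom hρ).choose

theorem Ext.Phi_transvection {ρ : Equiv.Perm (I l)} (hρ : Compat ρ) {i j : Fin l} (h : i ≠ j)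
    (t : F) : hE.Phi hρ (Matrix.SpecialLinearGroup.transvection h t) =
      hE.Z (ρ (.inl i)) (ρ (.inr j)) t := (hE.exists_levi_hom hρ).choose_spec.1 i j h t

theorem Ext.Phi_lies {ρ : Equiv.Perm (I l)} (hρ : Compat ρ) {A : SL(l, F)}
    {γ : isometryGroup F (Q l F)} (h : Levi ρ A γ) : Lies π (hE.Phi hρ A) γ := by
  obtain ⟨δ, h1, h2⟩ := (hE.exists_levi_hom hρ).choose_spec.2 A
  exact (h.unique h2).symm ▸ h1

theorem Ext.exists_levi {ρ : Equiv.Perm (I l)} (hρ : Compat ρ) (A : SL(l, F)) :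
    ∃ γ, Lies π (hE.Phi hρ A) γ ∧ Levi ρ A γ := (hE.exists_levi_hom hρ).choose_spec.2 A

/-! ## Weyl and torus elements -/

/-- The lifted Weyl element. -/
noncomputable def Ext.W (a b : I l) (t : F) : E :=
  hE.Z a b t * hE.Z (bar b) (bar a) (-t⁻¹) * hE.Z a b t

theorem Ext.W_lies {a b : I l} (h : ix a ≠ ix b) (t : F) : Lies π (hE.W a b t) (Ww a b t) :=
  ((hE.Z_spec h t).mul (hE.Z_spec (by simpa using h.symm) _)).mul (hE.Z_spec h t)

theorem Ext.W_inv {a b : I l} (h : ix a ≠ ix b) (t : F) : (hE.W a b t)⁻¹ = hE.W a b (-t) := by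
  have h' : ix (bar b) ≠ ix (bar a) := by simpa using h.symm
  rw [Ext.W, _root_.mul_inv_rev, _root_.mul_inv_rev, hE.Z_inv h, hE.Z_inv h', ← mul_assoc, Ext.W,
    inv_neg]

theorem Ext.W_swap {a b : I l} (h : ix a ≠ ix b) (t : F) : hE.W b a t = hE.W a b (-t) := by
  have h' : ix (bar b) ≠ ix (bar a) := by simpa using h.symm
  rw [Ext.W, hE.Z_swap h, hE.Z_swap h' (-t⁻¹), Ext.W, inv_neg]

theorem Ext.W_conj {g : E} {γ : isometryGroup F (Q l F)} {σ : Equiv.Perm (I l)} {w : I l → F}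
    (hγ : IsMono γ σ w) (hg : Lies π g γ) {a b : I l} (h : ix a ≠ ix b) {t : F} :
    g * hE.W a b t * g⁻¹ = hE.W (σ a) (σ b) (w a * w b * t) := by
  have h' : ix (bar b) ≠ ix (bar a) := by simpa using h.symm
  rw [Ext.W, show ∀ p q r : E, g * (p * q * r) * g⁻¹ = (g * p * g⁻¹) * (g * q * g⁻¹) * (g * r * g⁻¹)
    from fun p q r => by group, hE.Z_conj hγ hg h, hE.Z_conj hγ hg h', Ext.W,
    (hγ.perm_bar b).1, (hγ.perm_bar a).1]
  congr 3
  rw [_root_.mul_inv_rev, _root_.mul_inv_rev,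
    inv_eq_of_mul_eq_one_right (hγ.perm_bar a).2, inv_eq_of_mul_eq_one_right (hγ.perm_bar b).2]
  ring

theorem Ext.W_bar {a b : I l} (h : ix a ≠ ix b) {t : F} (ht : t ≠ 0) :
    hE.W a b t = hE.W (bar b) (bar a) (-t⁻¹) := by
  have h' : ix (bar b) ≠ ix (bar a) := by simpa using h.symm
  have d1 : a ≠ b := ne_of_ix h
  have d2 : a ≠ bar b := ne_of_ix (by simpa using h)
  have d3 : bar a ≠ b := ne_of_ix (by simpa using h)
  have d4 : bar a ≠ bar b := ne_of_ix (by simpa using h)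
  set w := hE.W a b t with hw
  have e1 : w * hE.Z a b t * w⁻¹ = hE.Z (bar b) (bar a) (-t⁻¹) := by
    rw [hE.Z_conj (isMono_Ww h ht) (hE.W_lies h t) h]
    simp [sw, ww, d1, d2, d1.symm, d2.symm, d3, d3.symm, d4, d4.symm, bar_ne, ne_bar,
      Equiv.swap_apply_of_ne_of_ne]
    congr 1; field_simp
  have e2 : w * hE.Z (bar b) (bar a) (-t⁻¹) * w⁻¹ = hE.Z a b t := by
    rw [hE.Z_conj (isMono_Ww h ht) (hE.W_lies h t) h']
    simp [sw, ww, d1, d2, d1.symm, d2.symm, d3, d3.symm, d4, d4.symm, bar_ne, ne_bar,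
      Equiv.swap_apply_of_ne_of_ne]
  calc w = (w * hE.Z a b t * w⁻¹) * (w * hE.Z (bar b) (bar a) (-t⁻¹) * w⁻¹) *
        (w * hE.Z a b t * w⁻¹) := by
          conv_rhs => rw [show ∀ p q r : E, (w * p * w⁻¹) * (w * q * w⁻¹) * (w * r * w⁻¹) =
            w * (p * q * r) * w⁻¹ from fun p q r => by group]
          rw [← Ext.W, ← hw, mul_inv_cancel_right]
    _ = _ := by rw [e1, e2, Ext.W, bar_bar, bar_bar, inv_neg, inv_inv, neg_neg]

/-- The lifted torus element. -/
noncomputable def Ext.H (a b : I l) (t : F) : E := hE.W a b t * hE.W a b (-1)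

theorem Ext.H_lies {a b : I l} (h : ix a ≠ ix b) (t : F) : Lies π (hE.H a b t) (Hh a b t) :=
  (hE.W_lies h t).mul (hE.W_lies h (-1))

theorem Ext.H_eq_Phi {ρ : Equiv.Perm (I l)} (hρ : Compat ρ) {i j : Fin l} (hij : i ≠ j) {t : F}
    (ht : t ≠ 0) : ∃ hd : ∏ m, hw (ρ (.inl i)) (ρ (.inr j)) t (ρ (.inl m)) = 1,
      hE.H (ρ (.inl i)) (ρ (.inr j)) t = hE.Phi hρ (dg _ hd) := by
  have b1 : bar (ρ (.inr j)) = ρ (.inl j) := by rw [← hρ]; rfl
  have b2 : bar (ρ (.inl i)) = ρ (.inr i) := by rw [← hρ]; rfl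
  set a := ρ (.inl i)
  set b := ρ (.inr j)
  let M : F → SL(l, F) := fun t => Matrix.SpecialLinearGroup.transvection hij t *
    Matrix.SpecialLinearGroup.transvection hij.symm (-t⁻¹) *
    Matrix.SpecialLinearGroup.transvection hij t
  have hM : ∀ t, hE.W a b t = hE.Phi hρ (M t) := fun t => by
    simp only [M, map_mul, hE.Phi_transvection]
    rw [Ext.W, b1, b2]
  have hL : ∀ t, Levi ρ (M t) (Ww a b t) := fun t => by
    rw [Ww, b1, b2]
    exact ((levi_transvection hρ hij t).mul (levi_transvection hρ hij.symm _)).mul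
      (levi_transvection hρ hij t)
  obtain ⟨hd, he⟩ := ((hL t).mul (hL (-1))).diag_of_mono
    (isMono_Hh (a := a) (b := b) (hρ.ix_ne hij) ht)
  exact ⟨hd, by rw [Ext.H, hM, hM, ← map_mul, he]⟩

/-- An element over a diagonal isometry commutes with the diagonal Levi elements. -/
theorem Ext.commute_dg {g : E} {γ : isometryGroup F (Q l F)} {w : I l → F} (hγ : IsMono γ 1 w)
    (hg : Lies π g γ) {ρ : Equiv.Perm (I l)} (hρ : Compat ρ) {d : Fin l → F}
    (hd : ∏ m, d m = 1) : Commute g (hE.Phi hρ (dg d hd)) := by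
  haveI : Nontrivial (Fin l) := Fin.nontrivial_iff_two_le.2 (by have := hE.four_le; omega)
  set c : Fin l → F := fun m => w (ρ (.inl m)) with hc
  have hc0 : ∀ m, c m ≠ 0 := fun m => hγ.ne_zero _
  let D : GL (Fin l) F := ⟨Matrix.diagonal c, Matrix.diagonal fun m => (c m)⁻¹,
    by simp [Matrix.diagonal_mul_diagonal, hc0], by simp [Matrix.diagonal_mul_diagonal, hc0]⟩
  let conjD : SL(l, F) → SL(l, F) := fun A =>
    ⟨(D : Matrix (Fin l) (Fin l) F) * A * ((D⁻¹ : GL (Fin l) F) : Matrix (Fin l) (Fin l) F), by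
      rw [Matrix.det_mul, Matrix.det_mul, A.2, mul_one, ← Matrix.det_mul, Units.mul_inv, Matrix.det_one]⟩
  have hmulD : ∀ A B, conjD (A * B) = conjD A * conjD B := fun A B => by
    refine Subtype.ext ?_
    rw [Matrix.SpecialLinearGroup.coe_mul]
    change (D : Matrix (Fin l) (Fin l) F) * ((A * B : SL(l, F)) : Matrix (Fin l) (Fin l) F) * _ =
      ((D : Matrix (Fin l) (Fin l) F) * A * _) * ((D : Matrix (Fin l) (Fin l) F) * B * _)
    rw [Matrix.SpecialLinearGroup.coe_mul]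
    simp only [mul_assoc, Units.inv_mul_cancel_left]
  have key : ∀ A, g * hE.Phi hρ A * g⁻¹ = hE.Phi hρ (conjD A) := by
    intro A
    induction A using Cfsg.Agent.Linear.transvection_induction with
    | htransvec i j h s =>
      rw [hE.Phi_transvection, hE.Z_conj hγ hg (hρ.ix_ne (a := .inl i) (b := .inr j) h)]
      have e : conjD (Matrix.SpecialLinearGroup.transvection h s) =
          Matrix.SpecialLinearGroup.transvection h (c i * (c j)⁻¹ * s) := by
        refine Subtype.ext ?_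
        change Matrix.diagonal c * Matrix.transvection i j s * Matrix.diagonal (fun m => (c m)⁻¹) =
          Matrix.transvection i j _
        simp only [Matrix.transvection, mul_add, add_mul, mul_one]
        rw [Matrix.diagonal_mul_diagonal]
        congr 1
        · simp [hc0]
        · ext x y
          simp only [Matrix.diagonal_mul, Matrix.mul_diagonal, Matrix.single_apply]
          split_ifs with hxy
          · obtain ⟨rfl, rfl⟩ := hxy; ring
          · simp
      rw [e, hE.Phi_transvection, Equiv.Perm.one_apply, Equiv.Perm.one_apply]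
      congr 1
      have := (hγ.perm_bar (ρ (.inl j))).2
      rw [← hρ] at this
      rw [inv_eq_of_mul_eq_one_right (show c j * w (ρ (.inr j)) = 1 from this)]
    | hmul A B hA hB =>
      rw [map_mul, hmulD, map_mul, ← hA, ← hB]; group
  have e := key (dg d hd)
  rw [show conjD (dg d hd) = dg d hd from Subtype.ext (by
    change Matrix.diagonal c * Matrix.diagonal d * Matrix.diagonal (fun m => (c m)⁻¹) = Matrix.diagonal d
    rw [Matrix.diagonal_mul_diagonal, Matrix.diagonal_mul_diagonal]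
    congr 1; funext m; have := hc0 m; field_simp)] at e
  exact mul_inv_eq_iff_eq_mul.1 e

/-- The first index. -/
def Ext.o0 : Fin l := ⟨0, by have := hE.four_le; omega⟩

/-- The second index. -/
def Ext.o1 : Fin l := ⟨1, by have := hE.four_le; omega⟩

/-- The section with one index flipped. -/
def Ext.flip : Equiv.Perm (I l) := Equiv.swap (.inl hE.o1) (.inr hE.o1)

theorem Ext.compat_flip : Compat hE.flip := by
  intro x
  rcases x with i | i <;> rcases eq_or_ne i hE.o1 with rfl | h <;>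
    simp [Ext.flip, bar, Equiv.swap_apply_of_ne_of_ne, *]

theorem Ext.o_ne : hE.o0 ≠ hE.o1 := by simp [Ext.o0, Ext.o1]

theorem Ext.flip_o0 : hE.flip (.inl hE.o0) = .inl hE.o0 := by
  simp [Ext.flip, Equiv.swap_apply_of_ne_of_ne, hE.o_ne]

/-- The diagonal parameters of the second torus. -/
def Ext.thetaD : Fˣ →* (Fin l → F) where
  toFun s m := if m = hE.o0 then (s : F) else if m = hE.o1 then (s : F)⁻¹ else 1
  map_one' := funext fun m => by simp
  map_mul' s u := funext fun m => by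
    simp only [Units.val_mul, Pi.mul_apply, mul_inv]
    split_ifs <;> simp

theorem Ext.prod_thetaD (s : Fˣ) : ∏ m, hE.thetaD s m = 1 := by
  classical
  have : hE.thetaD s = Pi.mulSingle hE.o0 (s : F) * Pi.mulSingle hE.o1 (s : F)⁻¹ := by
    funext m
    simp only [Ext.thetaD, MonoidHom.coe_mk, OneHom.coe_mk, Pi.mul_apply, Pi.mulSingle_apply]
    by_cases h0 : m = hE.o0
    · simp [h0, hE.o_ne]
    · simp [h0]
  rw [this]
  simp [Finset.prod_mul_distrib, Finset.prod_pi_mulSingle', Fintype.prod_pi_mulSingle']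

/-- The second torus. -/
noncomputable def Ext.theta : Fˣ →* E :=
  (hE.Phi hE.compat_flip).comp
    (MonoidHom.mk' (fun s => dg (hE.thetaD s) (hE.prod_thetaD s)) fun s u => Subtype.ext (by
      rw [Matrix.SpecialLinearGroup.coe_mul]
      change Matrix.diagonal (hE.thetaD (s * u)) = Matrix.diagonal _ * Matrix.diagonal _
      rw [map_mul, Matrix.diagonal_mul_diagonal]
      rfl))

/-- The weights of the second torus. -/
def Ext.thetaW (s : Fˣ) (x : I l) : F :=
  if x = .inl hE.o0 ∨ x = .inl hE.o1 then (s : F)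
  else if x = .inr hE.o0 ∨ x = .inr hE.o1 then (s : F)⁻¹ else 1

theorem Ext.theta_lies (s : Fˣ) :
    ∃ γ, Lies π (hE.theta s) γ ∧ IsMono γ 1 (hE.thetaW s) := by
  obtain ⟨γ, h1, h2⟩ := hE.exists_levi hE.compat_flip (dg (hE.thetaD s) (hE.prod_thetaD s))
  refine ⟨γ, h1, ?_⟩
  intro v x
  rw [h2.isMono_dg v x]
  congr 1
  rcases x with i | i <;> rcases eq_or_ne i hE.o0 with rfl | h0 <;>
    [skip; rcases eq_or_ne i hE.o1 with rfl | h1; skip; rcases eq_or_ne i hE.o1 with rfl | h1] <;>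
    simp [Ext.flip, Ext.thetaW, Ext.thetaD, Equiv.swap_apply_of_ne_of_ne, hE.o_ne, hE.o_ne.symm, *]

/-- The torus. -/
noncomputable def Ext.torus : diagPar l F × Fˣ →* E :=
  ((hE.Phi compat_one).comp (dgHom l F)).noncommCoprod hE.theta fun d s => by
    obtain ⟨γ, h1, h2⟩ := hE.theta_lies s
    exact (hE.commute_dg h2 h1 compat_one (prod_diagPar d)).symm

theorem Ext.Phi_mem_torus {d : Fin l → F} (hd : ∏ m, d m = 1) :
    hE.Phi compat_one (dg d hd) ∈ hE.torus.range := by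
  classical
  let u : Fin l → Fˣ := fun m => Units.mk0 (d m) (dg_ne_zero hd m)
  have hu : u ∈ diagPar l F := by
    change ∏ m, u m = (1 : Fˣ)
    exact Units.ext (by rw [Units.coe_prod]; exact hd)
  exact ⟨(⟨u, hu⟩, 1), by
    rw [Ext.torus, MonoidHom.noncommCoprod_apply, map_one, mul_one]
    rfl⟩

theorem Ext.theta_mem_torus (s : Fˣ) : hE.theta s ∈ hE.torus.range :=
  ⟨(1, s), by rw [Ext.torus, MonoidHom.noncommCoprod_apply, map_one, one_mul]⟩

theorem Ext.H_levi_mem {i j : Fin l} (hij : i ≠ j) {t : F} (ht : t ≠ 0) :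
    hE.H (.inl i) (.inr j) t ∈ hE.torus.range := by
  obtain ⟨hd, h⟩ := hE.H_eq_Phi compat_one hij ht
  exact h.symm ▸ hE.Phi_mem_torus hd

theorem Ext.H_o_mem {t : F} (ht : t ≠ 0) :
    hE.H (.inl hE.o0) (.inl hE.o1) t ∈ hE.torus.range := by
  obtain ⟨hd, h⟩ := hE.H_eq_Phi hE.compat_flip hE.o_ne ht
  have e1 : hE.flip (.inr hE.o1) = .inl hE.o1 := by simp [Ext.flip]
  simp only [hE.flip_o0, e1] at hd h
  rw [h]
  convert hE.theta_mem_torus (Units.mk0 t ht) using 1
  rw [Ext.theta, MonoidHom.comp_apply]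
  congr 1
  refine Subtype.ext ?_
  change Matrix.diagonal _ = Matrix.diagonal _
  congr 1
  funext m
  rcases eq_or_ne m hE.o0 with rfl | h0
  · simp [hw, Ext.flip, Ext.thetaD, Equiv.swap_apply_of_ne_of_ne, hE.o_ne]
  rcases eq_or_ne m hE.o1 with rfl | h1
  · simp [hw, Ext.flip, Ext.thetaD, bar, hE.o_ne.symm]
  simp [hw, Ext.flip, Ext.thetaD, bar, Equiv.swap_apply_of_ne_of_ne, h0, h1]

theorem Ext.H_ne_mem {a b : I l} (h : ix a ≠ ix b) {t : F} (ht : t ≠ 0)
    (hmem : ∀ s : F, s ≠ 0 → hE.H a b s ∈ hE.torus.range) :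
    hE.H b a t ∈ hE.torus.range ∧ hE.H (bar b) (bar a) t ∈ hE.torus.range := by
  have key : ∀ {p q : F}, p ≠ 0 → q ≠ 0 → hE.W a b p * hE.W a b (-q) ∈ hE.torus.range := by
    intro p q hp hq
    have e : hE.W a b p * hE.W a b (-q) = hE.H a b p * (hE.H a b q)⁻¹ := by
      rw [Ext.H, Ext.H, _root_.mul_inv_rev, hE.W_inv h q]; group
    rw [e]; exact mul_mem (hmem p hp) (inv_mem (hmem q hq))
  have h1 : (-1 : F) ≠ 0 := neg_ne_zero.2 one_ne_zero
  refine ⟨?_, ?_⟩
  · rw [Ext.H, hE.W_swap h, hE.W_swap h, neg_neg]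
    simpa using key (neg_ne_zero.2 ht) h1
  · have h' : ix (bar b) ≠ ix (bar a) := by simpa using h.symm
    rw [Ext.H, hE.W_bar h' ht, hE.W_bar h' h1, bar_bar, bar_bar, inv_neg, inv_one, neg_neg]
    simpa using key (neg_ne_zero.2 (inv_ne_zero ht)) h1

theorem Ext.H_step {i j k : Fin l} (hij : i ≠ j) (hki : k ≠ i) (hkj : k ≠ j) {t : F} (ht : t ≠ 0)
    (h : hE.H (.inl i) (.inl j) t ∈ hE.torus.range) :
    hE.H (.inl k) (.inl j) t ∈ hE.torus.range := by
  have hab : ix (.inl i : I l) ≠ ix (.inl j) := hij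
  have hg : ix (.inl k : I l) ≠ ix (.inr i) := hki
  set g := hE.W (.inl k) (.inr i) (1 : F)
  have hgm := isMono_Ww hg (one_ne_zero (α := F))
  have hgl : Lies π g (Ww (.inl k) (.inr i) 1) := hE.W_lies hg 1
  have e1 : g * hE.H (.inl i) (.inl j) t * g⁻¹ = hE.H (.inl k) (.inl j) t := by
    rw [Ext.H, show ∀ p q : E, g * (p * q) * g⁻¹ = (g * p * g⁻¹) * (g * q * g⁻¹) from
      fun p q => by group, hE.W_conj hgm hgl hab, hE.W_conj hgm hgl hab, Ext.H]
    simp [sw, ww, bar, hki, hki.symm, hij, hij.symm, hkj, hkj.symm, Equiv.swap_apply_of_ne_of_ne]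
  have hh := isMono_Hh hab ht
  have hhl := hE.H_lies hab t
  have e2 : hE.H (.inl i) (.inl j) t * g * (hE.H (.inl i) (.inl j) t)⁻¹ =
      hE.W (.inl k) (.inr i) t⁻¹ := by
    rw [hE.W_conj hh hhl hg]
    simp [hw, bar, hki, hki.symm, hij, hij.symm, hkj, hkj.symm]
  have e3 : hE.H (.inl k) (.inl j) t =
      (hE.H (.inl k) (.inr i) t⁻¹)⁻¹ * hE.H (.inl i) (.inl j) t := by
    rw [← e1, show hE.H (.inl k) (.inr i) t⁻¹ =
      hE.W (.inl k) (.inr i) t⁻¹ * hE.W (.inl k) (.inr i) (-1) from rfl, ← e2, ← hE.W_inv hg]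
    simp only [g]
    group
  rw [e3]
  exact mul_mem (inv_mem (hE.H_levi_mem hki (inv_ne_zero ht))) h

theorem Ext.H_inl_mem {i j : Fin l} (hij : i ≠ j) {t : F} (ht : t ≠ 0) :
    hE.H (.inl i) (.inl j) t ∈ hE.torus.range := by
  have swap : ∀ {i j : Fin l}, i ≠ j → (∀ s : F, s ≠ 0 → hE.H (.inl i) (.inl j) s ∈ hE.torus.range) →
      ∀ {t : F}, t ≠ 0 → hE.H (.inl j) (.inl i) t ∈ hE.torus.range := fun h hm _ ht =>
    (hE.H_ne_mem (a := .inl _) (b := .inl _) h ht hm).1
  have hk1 : ∀ k, k ≠ hE.o1 → ∀ s : F, s ≠ 0 → hE.H (.inl k) (.inl hE.o1) s ∈ hE.torus.range := by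
    intro k hk s hs
    rcases eq_or_ne k hE.o0 with rfl | h0
    · exact hE.H_o_mem hs
    · exact hE.H_step hE.o_ne h0 hk hs (hE.H_o_mem hs)
  rcases eq_or_ne j hE.o1 with rfl | hj
  · exact hk1 i hij t ht
  have h1j : ∀ s : F, s ≠ 0 → hE.H (.inl hE.o1) (.inl j) s ∈ hE.torus.range := fun s hs =>
    swap hj (hk1 j hj) hs
  rcases eq_or_ne i hE.o1 with rfl | hi
  · exact h1j t ht
  · exact hE.H_step hj.symm hi hij ht (h1j t ht)

theorem Ext.H_mem {a b : I l} (h : ix a ≠ ix b) {t : F} (ht : t ≠ 0) :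
    hE.H a b t ∈ hE.torus.range := by
  rcases a with i | i <;> rcases b with j | j
  · exact hE.H_inl_mem h ht
  · exact hE.H_levi_mem h ht
  · exact (hE.H_ne_mem (a := .inl j) (b := .inr i) (Ne.symm h) ht
      fun s hs => hE.H_levi_mem (Ne.symm h) hs).1
  · exact (hE.H_ne_mem (a := .inl j) (b := .inl i) (Ne.symm h) ht
      fun s hs => hE.H_inl_mem (Ne.symm h) hs).2

end

end Cfsg.Agent.DType
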