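import Cfsg.Agent.DType.Scalar
import Cfsg.Agent.DType.Positive

/-!
# The maximal unipotent subgroup
-/

set_option autoImplicit false
set_option linter.unusedSectionVars false

namespace Cfsg.Agent.DType

open Cfsg.Agent.CentralExt
open scoped commutatorElement MatrixGroups Matrix

universe u v

variable {F : Type u} [Field F] [Finite F] {l : ℕ} {E : Type v} [Group E]
  {π : E →* POmega F (Q l F)}

/-- `γ` fixes the first half pointwise and moves the second into it by `M`. -/
def UB (γ : isometryGroup F (Q l F)) (M : Matrix (Fin l) (Fin l) F) : Prop :=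
  (∀ v i, (mat γ *ᵥ v) (.inr i) = v (.inr i)) ∧
    ∀ v i, (mat γ *ᵥ v) (.inl i) = v (.inl i) + (M *ᵥ fun j => v (.inr j)) i

omit [Finite F] in
theorem UB.one : UB (1 : isometryGroup F (Q l F)) 0 :=
  ⟨fun v i => by simp [mat_one], fun v i => by simp [mat_one]⟩

omit [Finite F] in
theorem UB.mul {γ δ : isometryGroup F (Q l F)} {M N : Matrix (Fin l) (Fin l) F} (h : UB γ M)
    (k : UB δ N) : UB (γ * δ) (N + M) := by
  constructor
  · intro v i; rw [mat_mul, ← Matrix.mulVec_mulVec, h.1, k.1]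
  · intro v i
    rw [mat_mul, ← Matrix.mulVec_mulVec, h.2, k.2, Matrix.add_mulVec, Pi.add_apply, add_assoc]
    simp only [k.1]

omit [Finite F] in
theorem ub_X {p q : Fin l} (h : p ≠ q) (t : F) :
    UB (X (Sum.inl p) (Sum.inl q) t) (Matrix.single p q t - Matrix.single q p t) := by
  have hab : ix (Sum.inl p : I l) ≠ ix (Sum.inl q) := h
  constructor
  · intro v i; rw [mat_X hab, rmat_mulVec]; simp
  · intro v i
    rw [mat_X hab, rmat_mulVec, Matrix.sub_mulVec, Matrix.single_mulVec, Matrix.single_mulVec]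
    simp [Pi.single_apply, Function.update_apply, bar]

/-- Upper unitriangular matrices. -/
def Upper (A : SL(l, F)) : Prop :=
  ∀ i j, ((j < i → (A : Matrix (Fin l) (Fin l) F) i j = 0) ∧
    (i = j → (A : Matrix (Fin l) (Fin l) F) i j = 1))

omit [Finite F] in
theorem Upper.mul {A B : SL(l, F)} (hA : Upper A) (hB : Upper B) : Upper (A * B) := by
  intro i j
  rw [Matrix.SpecialLinearGroup.coe_mul, Matrix.mul_apply]
  refine ⟨fun h => Finset.sum_eq_zero fun k _ => ?_, fun h => ?_⟩
  · rcases lt_or_ge k i with hk | hk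
    · rw [(hA i k).1 hk, zero_mul]
    · rw [(hB k j).1 (lt_of_lt_of_le h hk), mul_zero]
  · subst h
    rw [Finset.sum_eq_single i]
    · rw [(hA i i).2 rfl, (hB i i).2 rfl, mul_one]
    · intro k _ hk
      rcases lt_or_gt_of_ne hk with hk | hk
      · rw [(hA i k).1 hk, zero_mul]
      · rw [(hB k i).1 hk, mul_zero]
    · simp

omit [Finite F] in
theorem upper_transvection {i j : Fin l} (h : i ≠ j) (hij : i < j) (t : F) :
    Upper (Matrix.SpecialLinearGroup.transvection h t) := by
  intro r s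
  change (_ → Matrix.transvection i j t r s = 0) ∧ (_ → Matrix.transvection i j t r s = 1)
  refine ⟨fun hrs => ?_, fun hrs => ?_⟩
  · simp only [Matrix.transvection, Matrix.add_apply, Matrix.one_apply_ne hrs.ne', Matrix.single_apply,
      zero_add]
    rw [if_neg]
    rintro ⟨rfl, rfl⟩
    exact lt_asymm hij hrs
  · subst hrs
    simp only [Matrix.transvection, Matrix.add_apply, Matrix.one_apply_eq, Matrix.single_apply]
    rw [if_neg (fun e => h (e.1.trans e.2.symm)), add_zero]

variable (hE : Ext π)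
include hE

/-- The group generated by the positive root elements. -/
def Ext.U : Subgroup E := Subgroup.closure {g | ∃ a b t, Pos a b ∧ g = hE.Z a b t}

/-- The group generated by the positive root elements other than the given root. -/
def Ext.Uo (a b : I l) : Subgroup E :=
  Subgroup.closure {g | ∃ c d t, Pos c d ∧ Other a b c d ∧ g = hE.Z c d t}

theorem Ext.Uo_le (a b : I l) : hE.Uo a b ≤ hE.U :=
  Subgroup.closure_mono (by rintro _ ⟨c, d, t, h, -, rfl⟩; exact ⟨c, d, t, h, rfl⟩)

theorem Ext.Z_mem_U {a b : I l} (h : Pos a b) (t : F) : hE.Z a b t ∈ hE.U :=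
  Subgroup.subset_closure ⟨a, b, t, h, rfl⟩

theorem Ext.commute_beta {a b : I l} (h : ix a ≠ ix b) (t u : F) :
    Commute (hE.Z a b t) (hE.Z (bar b) a u) := by
  have h' : ix a ≠ ix (bar b) := by simpa using h
  rw [hE.Z_swap h']
  exact hE.rc_bar h (hE.Z_spec h t) (hE.Z_spec h' (-u))

theorem Ext.pos_conj {a b c d : I l} (hab : Pos a b) (hcd : Pos c d) (t u : F) :
    hE.Z a b t * hE.Z c d u * (hE.Z a b t)⁻¹ = hE.Z c d u ∨
      ∃ p q v, Pos p q ∧ wt p + wt q = (wt a + wt b) + (wt c + wt d) ∧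
        hE.Z a b t * hE.Z c d u * (hE.Z a b t)⁻¹ = hE.Z p q v * hE.Z c d u := by
  have core : ∀ {a b d : I l}, Pos a b → Pos (bar b) d → ∀ t u : F,
      hE.Z a b t * hE.Z (bar b) d u * (hE.Z a b t)⁻¹ = hE.Z (bar b) d u ∨
      ∃ p q v, Pos p q ∧ wt p + wt q = (wt a + wt b) + (wt (bar b) + wt d) ∧
        hE.Z a b t * hE.Z (bar b) d u * (hE.Z a b t)⁻¹ = hE.Z p q v * hE.Z (bar b) d u := by
    intro a b d hab hcd t u
    by_cases he : ix a = ix d
    · rcases eq_or_eq_bar he with rfl | e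
      · exact Or.inl (by rw [(hE.commute_beta hab.1 t u).eq, mul_inv_cancel_right])
      · exfalso
        have h1 := hcd.2
        have h2 := hab.2
        rw [e, wt_bar] at h2
        rw [wt_bar] at h1
        omega
    · have hT : Tri a b d := ⟨hab.1, by simpa using hcd.1, he⟩
      refine Or.inr ⟨a, d, t * u, ⟨he, ?_⟩, by rw [wt_bar]; ring, ?_⟩
      · have h1 := hcd.2; have h2 := hab.2; rw [wt_bar] at h1; omega
      · rw [← hE.Z_comm hT, commutatorElement_def, inv_mul_cancel_right]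
  have sw' : ∀ {c d : I l}, Pos c d → Pos d c := fun h => ⟨h.1.symm, by have := h.2; omega⟩
  by_cases h1 : c = bar b
  · subst h1; exact core hab hcd t u
  by_cases h2 : c = bar a
  · subst h2
    have e := core (sw' hab) hcd (-t) u
    rw [hE.Z_swap hab.1, neg_neg, add_comm (wt b)] at e
    exact e
  by_cases h3 : d = bar b
  · subst h3
    have e := core hab (sw' hcd) t (-u)
    rw [hE.Z_swap hcd.1, neg_neg, add_comm (wt (bar b))] at e
    exact e
  by_cases h4 : d = bar a
  · subst h4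
    have e := core (sw' hab) (sw' hcd) (-t) (-u)
    rw [hE.Z_swap hab.1, hE.Z_swap hcd.1, neg_neg, neg_neg, add_comm (wt b),
      add_comm (wt (bar a))] at e
    exact e
  exact Or.inl (by
    rw [(hE.rc hab.1 hcd.1 h2 h1 h4 h3 (hE.Z_spec hab.1 t) (hE.Z_spec hcd.1 u)).eq,
      mul_inv_cancel_right])

theorem Ext.Uo_conj {a b : I l} (hab : Pos a b) (t : F) {u : E} (hu : u ∈ hE.Uo a b) :
    hE.Z a b t * u * (hE.Z a b t)⁻¹ ∈ hE.Uo a b := by
  induction hu using Subgroup.closure_induction with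
  | mem x hx =>
    obtain ⟨c, d, s, hcd, ho, rfl⟩ := hx
    rcases hE.pos_conj hab hcd t s with e | ⟨p, q, v, hpq, hsum, e⟩
    · rw [e]; exact Subgroup.subset_closure ⟨c, d, s, hcd, ho, rfl⟩
    · rw [e]
      refine mul_mem (Subgroup.subset_closure ⟨p, q, v, hpq, ⟨?_, ?_⟩, rfl⟩)
        (Subgroup.subset_closure ⟨c, d, s, hcd, ho, rfl⟩) <;>
      · rintro ⟨rfl, rfl⟩
        have := hcd.2
        omega
  | one => rw [mul_one, mul_inv_cancel]; exact one_mem _
  | mul y z _ _ ihy ihz =>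
    rw [show ∀ g p q : E, g * (p * q) * g⁻¹ = (g * p * g⁻¹) * (g * q * g⁻¹) from
      fun g p q => by group]
    exact mul_mem ihy ihz
  | inv y _ ih =>
    rw [show ∀ g p : E, g * p⁻¹ * g⁻¹ = (g * p * g⁻¹)⁻¹ from fun g p => by group]
    exact inv_mem ih

/-- A unipotent element splits off the root of a given positive root. -/
theorem Ext.U_split {a b : I l} (hab : Pos a b) {u : E} (hu : u ∈ hE.U) :
    ∃ s, ∃ v ∈ hE.Uo a b, u = hE.Z a b s * v := by
  have step : ∀ (c d : I l) (t : F), Pos c d → ∀ y : E, (∃ s, ∃ v ∈ hE.Uo a b, y = hE.Z a b s * v) →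
      ∃ s, ∃ v ∈ hE.Uo a b, hE.Z c d t * y = hE.Z a b s * v := by
    rintro c d t hcd _ ⟨s, v, hv, rfl⟩
    by_cases ho : Other a b c d
    · refine ⟨s, (hE.Z a b (-s) * hE.Z c d t * (hE.Z a b (-s))⁻¹) * v,
        mul_mem (hE.Uo_conj hab _ (Subgroup.subset_closure ⟨c, d, t, hcd, ho, rfl⟩)) hv, ?_⟩
      rw [← hE.Z_inv hab.1 s]; group
    · rw [Other, not_and_or, not_not, not_not] at ho
      rcases ho with ⟨rfl, rfl⟩ | ⟨rfl, rfl⟩
      · exact ⟨t + s, v, hv, by rw [hE.Z_add hab.1, mul_assoc]⟩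
      · exact ⟨-t + s, v, hv, by rw [hE.Z_add hab.1, mul_assoc, hE.Z_swap hab.1]⟩
  refine Subgroup.closure_induction_left (p := fun y _ => ∃ s, ∃ v ∈ hE.Uo a b, y = hE.Z a b s * v)
    ⟨0, 1, one_mem _, by rw [hE.Z_zero hab.1, mul_one]⟩ ?_ ?_ hu
  · rintro _ ⟨c, d, t, hcd, rfl⟩ y _ hy; exact step c d t hcd y hy
  · rintro _ ⟨c, d, t, hcd, rfl⟩ y _ hy
    rw [hE.Z_inv hcd.1]; exact step c d (-t) hcd y hy

theorem Ext.W_Uo {a b : I l} (h : Simple a b) {t : F} (ht : t ≠ 0) {u : E} (hu : u ∈ hE.Uo a b) :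
    hE.W a b t * u * (hE.W a b t)⁻¹ ∈ hE.Uo a b := by
  have hab := h.pos
  induction hu using Subgroup.closure_induction with
  | mem x hx =>
    obtain ⟨c, d, s, hcd, ho, rfl⟩ := hx
    have hm := isMono_Ww hab.1 ht
    rw [hE.Z_conj hm (hE.W_lies hab.1 t) hcd.1]
    have hpos := h.perm hcd ho
    refine Subgroup.subset_closure ⟨_, _, _, ⟨(hm.conj hcd.1 s).1, hpos⟩, ⟨?_, ?_⟩, rfl⟩ <;>
    · rintro ⟨e1, e2⟩
      have f1 : sw a b a = bar b := (sw_apply hab.1).1
      have f2 : sw a b b = bar a := (sw_apply hab.1).2.1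
      have g1 : sw a b (bar b) = a := by rw [sw_bar hab.1, f2, bar_bar]
      have g2 : sw a b (bar a) = b := by rw [sw_bar hab.1, f1, bar_bar]
      have k1 : c = bar a ∨ c = bar b := by
        first
          | exact Or.inr ((sw a b).injective (e1.trans g1.symm))
          | exact Or.inl ((sw a b).injective (e1.trans g2.symm))
      have k2 : d = bar a ∨ d = bar b := by
        first
          | exact Or.inl ((sw a b).injective (e2.trans g2.symm))
          | exact Or.inr ((sw a b).injective (e2.trans g1.symm))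
      have := hcd.2
      have := hab.2
      have := hcd.1
      rcases k1 with rfl | rfl <;> rcases k2 with rfl | rfl <;> simp [wt_bar] at * <;> omega
  | one => rw [mul_one, mul_inv_cancel]; exact one_mem _
  | mul y z _ _ ihy ihz =>
    rw [show ∀ g p q : E, g * (p * q) * g⁻¹ = (g * p * g⁻¹) * (g * q * g⁻¹) from
      fun g p q => by group]
    exact mul_mem ihy ihz
  | inv y _ ih =>
    rw [show ∀ g p : E, g * p⁻¹ * g⁻¹ = (g * p * g⁻¹)⁻¹ from fun g p => by group]
    exact inv_mem ih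

/-! ## Unipotent elements over monomial isometries -/

/-- The pairs indexing the unipotent radical. -/
abbrev P2 (l : ℕ) : Type := {p : Fin l × Fin l // p.1 < p.2}

/-- The coordinates of the radical. -/
noncomputable def Ext.nu : (P2 l → Multiplicative F) →* E :=
  MonoidHom.noncommPiCoprod (N := fun _ : P2 l => Multiplicative F)
    (fun p => MonoidHom.mk' (fun t => hE.Z (.inl p.1.1) (.inl p.1.2) t.toAdd) fun s t =>
      hE.Z_add (show ix (Sum.inl p.1.1 : I l) ≠ ix (Sum.inl p.1.2) from p.2.ne) _ _)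
    fun p q _ s t => hE.rc (show ix (Sum.inl p.1.1 : I l) ≠ ix (Sum.inl p.1.2) from p.2.ne)
      (show ix (Sum.inl q.1.1 : I l) ≠ ix (Sum.inl q.1.2) from q.2.ne) (by simp [bar]) (by simp [bar])
      (by simp [bar]) (by simp [bar]) (hE.Z_spec (a := .inl p.1.1) (c := .inl p.1.2) p.2.ne _)
      (hE.Z_spec (a := .inl q.1.1) (c := .inl q.1.2) q.2.ne _)

theorem Ext.nu_single (p : P2 l) (t : Multiplicative F) :
    hE.nu (Pi.mulSingle p t) = hE.Z (.inl p.1.1) (.inl p.1.2) t.toAdd := by
  classical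
  exact MonoidHom.noncommPiCoprod_mulSingle (N := fun _ : P2 l => Multiplicative F) _ p t

theorem Ext.nu_lies (B : P2 l → Multiplicative F) :
    ∃ γ M, Lies π (hE.nu B) γ ∧ UB γ M ∧ ∀ p : P2 l, M p.1.1 p.1.2 = (B p).toAdd := by
  classical
  induction B using Pi.mulSingle_induction with
  | one => exact ⟨1, 0, by rw [map_one]; exact Lies.one, UB.one, fun p => rfl⟩
  | mul B C hB hC =>
    obtain ⟨γ, M, g1, g2, g3⟩ := hB
    obtain ⟨δ, N, k1, k2, k3⟩ := hC
    exact ⟨γ * δ, N + M, by rw [map_mul]; exact g1.mul k1, g2.mul k2, fun p => by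
      rw [Matrix.add_apply, g3, k3, Pi.mul_apply, toAdd_mul, add_comm]⟩
  | mulSingle p t =>
    refine ⟨_, _, by rw [hE.nu_single]; exact hE.Z_spec (a := .inl p.1.1) (c := .inl p.1.2) p.2.ne _, ub_X p.2.ne _, fun q => ?_⟩
    rcases eq_or_ne q p with rfl | hq
    · rw [Pi.mulSingle_eq_same, Matrix.sub_apply, Matrix.single_apply, Matrix.single_apply,
        if_pos ⟨rfl, rfl⟩, if_neg (fun e => q.2.ne e.1.symm), sub_zero]
    · rw [Pi.mulSingle_eq_of_ne hq, Matrix.sub_apply, Matrix.single_apply, Matrix.single_apply,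
        if_neg, if_neg, sub_zero]
      · rfl
      · rintro ⟨e1, e2⟩
        have h1 : (p.1.2 : ℕ) = q.1.1 := congrArg Fin.val e1
        have h2 : (p.1.1 : ℕ) = q.1.2 := congrArg Fin.val e2
        have := Fin.lt_def.1 p.2
        have := Fin.lt_def.1 q.2
        omega
      · rintro ⟨e1, e2⟩; exact hq (Subtype.ext (Prod.ext e1.symm e2.symm))

theorem Ext.inl_mem_nu {i j : Fin l} (h : i ≠ j) (t : F) :
    hE.Z (.inl i) (.inl j) t ∈ hE.nu.range := by
  rcases lt_or_gt_of_ne h with hij | hij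
  · exact ⟨Pi.mulSingle ⟨(i, j), hij⟩ (Multiplicative.ofAdd t), hE.nu_single _ _⟩
  · rw [hE.Z_swap (a := .inl j) (c := .inl i) hij.ne]
    exact ⟨Pi.mulSingle ⟨(j, i), hij⟩ (Multiplicative.ofAdd (-t)), hE.nu_single _ _⟩

theorem Ext.Phi_conj_nu (A : SL(l, F)) : ∀ n ∈ hE.nu.range,
    hE.Phi compat_one A * n * (hE.Phi compat_one A)⁻¹ ∈ hE.nu.range := by
  classical
  haveI : Nontrivial (Fin l) := Fin.nontrivial_iff_two_le.2 (by have := hE.four_le; omega)
  induction A using Cfsg.Agent.Linear.transvection_induction with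
  | htransvec i j h t =>
    rw [hE.Phi_transvection, Equiv.Perm.one_apply, Equiv.Perm.one_apply]
    rintro _ ⟨B, rfl⟩
    induction B using Pi.mulSingle_induction with
    | one => rw [map_one, mul_one, mul_inv_cancel]; exact one_mem _
    | mul B C hB hC =>
      rw [map_mul, show ∀ g p q : E, g * (p * q) * g⁻¹ = (g * p * g⁻¹) * (g * q * g⁻¹) from
        fun g p q => by group]
      exact mul_mem hB hC
    | mulSingle p s =>
      rw [hE.nu_single]
      obtain ⟨⟨a, b⟩, hab⟩ := p
      -- the transvection meets the radical root in at most one index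
      have main : ∀ (a b : Fin l), a ≠ b → a = j → ∀ s : F,
          hE.Z (.inl i) (.inr j) t * hE.Z (.inl a) (.inl b) s * (hE.Z (.inl i) (.inr j) t)⁻¹ ∈
            hE.nu.range := by
        intro a b hab haj s
        subst haj
        rcases eq_or_ne i b with rfl | hib
        · have e := hE.commute_beta (a := .inl i) (b := .inr a) h t s
          rw [show bar (Sum.inr a : I l) = .inl a from rfl] at e
          rw [e.eq, mul_inv_cancel_right]
          exact hE.inl_mem_nu hab s
        · have hT : Tri (Sum.inl i : I l) (.inr a) (.inl b) := ⟨h, hab, hib⟩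
          have e := hE.Z_comm hT t s
          rw [show bar (Sum.inr a : I l) = .inl a from rfl, commutatorElement_def] at e
          rw [show hE.Z (.inl i) (.inr a) t * hE.Z (.inl a) (.inl b) s * (hE.Z (.inl i) (.inr a) t)⁻¹ =
            hE.Z (.inl i) (.inl b) (t * s) * hE.Z (.inl a) (.inl b) s by rw [← e]; group]
          exact mul_mem (hE.inl_mem_nu hib _) (hE.inl_mem_nu hab s)
      rcases eq_or_ne a j with haj | haj
      · exact main a b hab.ne haj _
      rcases eq_or_ne b j with hbj | hbj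
      · rw [hE.Z_swap (a := .inl b) (c := .inl a) hab.ne']
        exact main b a hab.ne' hbj _
      rw [(hE.rc (a := .inl i) (b := .inr j) h (show ix (Sum.inl a : I l) ≠ ix (Sum.inl b) from hab.ne)
        (by simp [bar]) (by simpa [bar] using haj) (by simp [bar]) (by simpa [bar] using hbj)
        (hE.Z_spec (a := .inl i) (c := .inr j) h t) (hE.Z_spec (a := .inl a) (c := .inl b) hab.ne _)).eq, mul_inv_cancel_right]
      exact hE.inl_mem_nu hab.ne _
  | hmul A B hA hB =>
    intro n hn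
    rw [map_mul, show ∀ p q : E, p * q * n * (p * q)⁻¹ = p * (q * n * q⁻¹) * p⁻¹ from
      fun p q => by group]
    exact hA _ (hB n hn)

theorem Ext.U_decomp {u : E} (hu : u ∈ hE.U) :
    ∃ A, Upper A ∧ ∃ n ∈ hE.nu.range, u = hE.Phi compat_one A * n := by
  have step : ∀ (c d : I l) (t : F), Pos c d → ∀ y : E,
      (∃ A, Upper A ∧ ∃ n ∈ hE.nu.range, y = hE.Phi compat_one A * n) →
      ∃ A, Upper A ∧ ∃ n ∈ hE.nu.range, hE.Z c d t * y = hE.Phi compat_one A * n := by
    rintro c d t hcd _ ⟨A, hA, n, hn, rfl⟩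
    have inU : ∀ {i j : Fin l}, i < j → ∀ s : F, ∃ A', Upper A' ∧ ∃ n' ∈ hE.nu.range,
        hE.Z (.inl i) (.inr j) s * (hE.Phi compat_one A * n) = hE.Phi compat_one A' * n' :=
      fun hij s => ⟨_, (upper_transvection hij.ne hij s).mul hA, n, hn, by
        rw [map_mul, hE.Phi_transvection, Equiv.Perm.one_apply, Equiv.Perm.one_apply, mul_assoc]⟩
    have inN : ∀ {g : E}, g ∈ hE.nu.range → ∃ A', Upper A' ∧ ∃ n' ∈ hE.nu.range,
        g * (hE.Phi compat_one A * n) = hE.Phi compat_one A' * n' := fun {g} hg =>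
      ⟨A, hA, ((hE.Phi compat_one A⁻¹) * g * (hE.Phi compat_one A⁻¹)⁻¹) * n,
        mul_mem (hE.Phi_conj_nu _ _ hg) hn, by rw [map_inv]; group⟩
    obtain ⟨hne, hpos⟩ := hcd
    rcases c with i | i <;> rcases d with j | j
    · exact inN (hE.inl_mem_nu hne t)
    · exact inU (Fin.lt_def.2 (by simp [wt] at hpos; omega)) t
    · rw [hE.Z_swap (a := .inl j) (c := .inr i) hne.symm]
      exact inU (Fin.lt_def.2 (by simp [wt] at hpos; omega)) _
    · exfalso; simp [wt] at hpos; omega
  refine Subgroup.closure_induction_left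
    (p := fun y _ => ∃ A, Upper A ∧ ∃ n ∈ hE.nu.range, y = hE.Phi compat_one A * n)
    ⟨1, fun i j => ?_, 1, one_mem _, by rw [map_one, mul_one]⟩ ?_ ?_ hu
  · exact ⟨fun h => Matrix.one_apply_ne h.ne', fun h => h ▸ Matrix.one_apply_eq i⟩
  · rintro _ ⟨c, d, t, hcd, rfl⟩ y _ hy; exact step c d t hcd y hy
  · rintro _ ⟨c, d, t, hcd, rfl⟩ y _ hy
    rw [hE.Z_inv hcd.1]; exact step c d (-t) hcd y hy

/-- A unipotent element over a monomial isometry is trivial. -/
theorem Ext.U_mono {u : E} (hu : u ∈ hE.U) {δ : isometryGroup F (Q l F)} {σ : Equiv.Perm (I l)}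
    {w : I l → F} (hm : IsMono δ σ w) (hl : Lies π u δ) : σ = 1 ∧ u = 1 := by
  classical
  obtain ⟨A, hA, n, ⟨B, rfl⟩, rfl⟩ := hE.U_decomp hu
  obtain ⟨γA, a1, a2⟩ := hE.exists_levi compat_one A
  obtain ⟨γn, M, b1, b2, b3⟩ := hE.nu_lies B
  obtain ⟨c, hc, hcv⟩ := (a1.mul b1).scalar hE.three_le hl
  have hc0 : c ≠ 0 := fun e => by rw [e, zero_mul] at hc; exact zero_ne_one hc
  have hfix : ∀ j : Fin l, mat γn *ᵥ Pi.single (Sum.inl j : I l) (1 : F) = Pi.single (Sum.inl j) 1 := by
    intro j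
    funext x
    rcases x with i | i
    · rw [b2.2]
      simp [Matrix.mulVec, dotProduct, Pi.single_apply]
    · rw [b2.1]
  have hcol : ∀ i j : Fin l, (mat δ *ᵥ Pi.single (Sum.inl j : I l) (1 : F)) (.inl i) =
      c * (A : Matrix (Fin l) (Fin l) F) i j := by
    intro i j
    rw [hcv, Pi.smul_apply, smul_eq_mul, mat_mul, ← Matrix.mulVec_mulVec, hfix]
    have e := a2.1 (Pi.single (Sum.inl j : I l) (1 : F)) i
    rw [Equiv.Perm.one_apply] at e
    rw [e]
    simp [Matrix.mulVec, dotProduct, Pi.single_apply]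
  have hσl : ∀ j : Fin l, σ (Sum.inl j) = Sum.inl j := by
    intro j
    by_contra hne
    have e := hcol j j
    rw [hm.mulVec_single, Pi.single_eq_of_ne (Ne.symm hne), (hA j j).2 rfl, mul_one] at e
    exact hc0 e.symm
  have hσ : σ = 1 := by
    ext x
    rcases x with i | i
    · exact hσl i
    · rw [show (Sum.inr i : I l) = bar (.inl i) from rfl, (hm.perm_bar _).1, hσl]
      rfl
  subst hσ
  have hA1 : A = 1 := by
    refine Subtype.ext (Matrix.ext fun i j => ?_)
    rcases eq_or_ne i j with rfl | hij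
    · exact ((hA i i).2 rfl).trans (Matrix.one_apply_eq i).symm
    · have e := hcol i j
      rw [hm.mulVec_single, Equiv.Perm.one_apply,
        Pi.single_eq_of_ne (show (Sum.inl i : I l) ≠ .inl j by simpa using hij)] at e
      exact ((mul_eq_zero.1 e.symm).resolve_left hc0).trans (Matrix.one_apply_ne hij).symm
  subst hA1
  have hγA : γA = 1 := a2.unique ⟨fun v i => by simp [mat_one], fun v i => by simp [mat_one]⟩
  subst hγA
  refine ⟨rfl, ?_⟩
  suffices hB : B = 1 by rw [hB, map_one, map_one, one_mul]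
  funext p
  have e := congrFun (hcv (Pi.single (Sum.inr p.1.2 : I l) (1 : F))) (.inl p.1.1)
  rw [one_mul, hm.mulVec_single, Pi.smul_apply, b2.2, Equiv.Perm.one_apply,
    Pi.single_eq_of_ne (show (Sum.inl p.1.1 : I l) ≠ .inr p.1.2 by simp)] at e
  simp [Matrix.mulVec, dotProduct, Pi.single_apply, hc0, b3] at e
  rw [Pi.one_apply]
  exact e

end Cfsg.Agent.DType
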