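import Cfsg.Agent.DType.Omega

/-!
# Monomial elements: Weyl and torus elements of a root
-/

set_option autoImplicit false
set_option linter.unusedSectionVars false

namespace Cfsg.Agent.DType

open Matrix

universe u

variable {F : Type u} [Field F] {l : ℕ}

/-- The Weyl element of a root. -/
def Ww (a b : I l) (t : F) : isometryGroup F (Q l F) :=
  X a b t * X (bar b) (bar a) (-t⁻¹) * X a b t

/-- The permutation of a root. -/
def sw (a b : I l) : Equiv.Perm (I l) := Equiv.swap a (bar b) * Equiv.swap (bar a) b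

/-- The weights of the Weyl element. -/
def ww (a b : I l) (t : F) (x : I l) : F :=
  if x = a then -t⁻¹ else if x = bar b then t else if x = b then t⁻¹ else if x = bar a then -t else 1

theorem isMono_Ww {a b : I l} (h : ix a ≠ ix b) {t : F} (ht : t ≠ 0) :
    IsMono (Ww a b t) (sw a b) (ww a b t) := by
  intro v x
  have h' : ix (bar b) ≠ ix (bar a) := by simpa using h.symm
  have d1 : a ≠ b := ne_of_ix h
  have d2 : a ≠ bar b := ne_of_ix (by simpa using h)
  have d3 : bar a ≠ b := ne_of_ix (by simpa using h)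
  have d4 : bar a ≠ bar b := ne_of_ix (by simpa using h)
  rw [Ww, mat_mul, mat_mul, ← Matrix.mulVec_mulVec, ← Matrix.mulVec_mulVec, mat_X h, mat_X h',
    rmat_mulVec, rmat_mulVec, rmat_mulVec]
  simp only [bar_bar]
  by_cases ha : x = a
  · subst ha
    simp [sw, ww, d1, d2, d1.symm, d2.symm, d3, d3.symm, d4, d4.symm, bar_ne, ne_bar,
      Equiv.swap_apply_of_ne_of_ne]
    field_simp
    ring
  by_cases hb : x = b
  · subst hb
    simp [sw, ww, d1, d2, d1.symm, d2.symm, d3, d3.symm, d4, d4.symm, bar_ne, ne_bar,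
      Equiv.swap_apply_of_ne_of_ne]
    field_simp
    ring
  by_cases hbb : x = bar b
  · subst hbb
    simp [sw, ww, d1, d2, d1.symm, d2.symm, d3, d3.symm, d4, d4.symm, bar_ne, ne_bar,
      Equiv.swap_apply_of_ne_of_ne]
    field_simp
    ring
  by_cases hba : x = bar a
  · subst hba
    simp [sw, ww, d1, d2, d1.symm, d2.symm, d3, d3.symm, d4, d4.symm, bar_ne, ne_bar,
      Equiv.swap_apply_of_ne_of_ne]
    field_simp
    ring
  simp [sw, ww, ha, hb, hbb, hba, Equiv.swap_apply_of_ne_of_ne]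

/-- The torus element of a root. -/
def Hh (a b : I l) (t : F) : isometryGroup F (Q l F) := Ww a b t * Ww a b (-1)

/-- The weights of the torus element. -/
def hw (a b : I l) (t : F) (x : I l) : F :=
  if x = a ∨ x = b then t else if x = bar a ∨ x = bar b then t⁻¹ else 1

theorem sw_mul_self {a b : I l} (h : ix a ≠ ix b) : sw a b * sw a b = 1 := by
  have d1 : a ≠ b := ne_of_ix h
  have d2 : a ≠ bar a := ne_bar a
  have d3 : bar b ≠ bar a := ne_of_ix (by simpa using h.symm)
  have d4 : bar b ≠ b := bar_ne b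
  ext x
  simp only [sw, Equiv.Perm.mul_apply, Equiv.Perm.one_apply]
  by_cases hA : x = a
  · subst hA; simp [Equiv.swap_apply_of_ne_of_ne, d1, d2, d3, d4]
  by_cases hB : x = bar b
  · subst hB; simp [Equiv.swap_apply_of_ne_of_ne, d1, d2, d3, d4]
  by_cases hC : x = bar a
  · subst hC; simp [Equiv.swap_apply_of_ne_of_ne, d1.symm, d2.symm, d3.symm, d4.symm]
  by_cases hD : x = b
  · subst hD; simp [Equiv.swap_apply_of_ne_of_ne, d1.symm, d2.symm, d3.symm, d4.symm]
  simp [Equiv.swap_apply_of_ne_of_ne, hA, hB, hC, hD]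

theorem isMono_Hh {a b : I l} (h : ix a ≠ ix b) {t : F} (ht : t ≠ 0) :
    IsMono (Hh a b t) 1 (hw a b t) := by
  have e := (isMono_Ww h ht).mul (isMono_Ww h (neg_ne_zero.2 (one_ne_zero (α := F))))
  rw [sw_mul_self h] at e
  intro v x
  rw [show hw a b t x = ww a b t (sw a b x) * ww a b (-1) x from ?_]
  · exact e v x
  have d1 : a ≠ b := ne_of_ix h
  have d2 : a ≠ bar b := ne_of_ix (by simpa using h)
  have d3 : bar a ≠ b := ne_of_ix (by simpa using h)
  have d4 : bar a ≠ bar b := ne_of_ix (by simpa using h)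
  by_cases ha : x = a
  · subst ha
    simp [sw, ww, hw, d1, d2, d1.symm, d2.symm, d3, d3.symm, d4, d4.symm, bar_ne, ne_bar,
      Equiv.swap_apply_of_ne_of_ne]
  by_cases hb : x = b
  · subst hb
    simp [sw, ww, hw, d1, d2, d1.symm, d2.symm, d3, d3.symm, d4, d4.symm, bar_ne, ne_bar,
      Equiv.swap_apply_of_ne_of_ne]
  by_cases hbb : x = bar b
  · subst hbb
    simp [sw, ww, hw, d1, d2, d1.symm, d2.symm, d3, d3.symm, d4, d4.symm, bar_ne, ne_bar,
      Equiv.swap_apply_of_ne_of_ne]
  by_cases hba : x = bar a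
  · subst hba
    simp [sw, ww, hw, d1, d2, d1.symm, d2.symm, d3, d3.symm, d4, d4.symm, bar_ne, ne_bar,
      Equiv.swap_apply_of_ne_of_ne]
  simp [sw, ww, hw, ha, hb, hbb, hba, Equiv.swap_apply_of_ne_of_ne]

theorem Ww_mem_Omega (hl : 3 ≤ l) (a b : I l) (t : F) : Ww a b t ∈ Omega F (Q l F) :=
  mul_mem (mul_mem (X_mem_Omega hl _ _ _) (X_mem_Omega hl _ _ _)) (X_mem_Omega hl _ _ _)

theorem Hh_mem_Omega (hl : 3 ≤ l) (a b : I l) (t : F) : Hh a b t ∈ Omega F (Q l F) :=
  mul_mem (Ww_mem_Omega hl _ _ _) (Ww_mem_Omega hl _ _ _)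

end Cfsg.Agent.DType
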